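import Cfsg.Agent.Lib.He.Pat

set_option autoImplicit false

/-! # The configuration `N(J) = J : (S₃ × S₃)` in normal form

Notation (1-indexed upper triangular coordinates): `x_{ij} = 1 + E_{ij}`, `z0 = x15`. -/

namespace Cfsg.Agent.Lib.Held

open Cfsg.Agent.Lib.He

/-- `t₁ = x12 x35^e` -/
def mt1 (e : Bool) : M := cond e ⟨0, 17⟩ ⟨0, 1⟩
/-- `a₂ = x23 x15^f` -/
def ma2 (f : Bool) : M := cond f ⟨1, 64⟩ ⟨1, 0⟩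
/-- `b₁ = x34 x15^f` -/
def mb1 (f : Bool) : M := cond f ⟨2, 64⟩ ⟨2, 0⟩
/-- `t₄ = x45 x13^{e₄} x25^{e₁ e₄}` -/
def mt4 (e₁ e₄ : Bool) : M := cond e₄ (cond e₁ ⟨0, 42⟩ ⟨0, 34⟩) ⟨0, 32⟩

variable {G : Type*} [Group G]

/-- `⟨s₁, t₁⟩ × ⟨s₄, t₄⟩ ≅ S₃ × S₃` is a complement to `J = ⟨a₁, a₂, b₁, b₂⟩` in `N(J)`, where
`a₁ = (t₁ a₂)²`, `b₂ = (t₄ b₁)²`; the first factor centralises `b₁, b₂`, the second `a₁, a₂`. -/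
structure Cfg (φ : M →* G) (t₁ t₄ a₂ b₁ : M) (s₁ s₄ : G) : Prop where
  sq1 : s₁ * s₁ = 1
  sq4 : s₄ * s₄ = 1
  br1 : (s₁ * φ t₁) ^ 3 = 1
  br4 : (s₄ * φ t₄) ^ 3 = 1
  c14 : s₁ * s₄ = s₄ * s₁
  c1t : s₁ * φ t₄ = φ t₄ * s₁
  c4t : s₄ * φ t₁ = φ t₁ * s₄
  s1a : s₁ * φ ((t₁ * a₂) ^ 2) * s₁ = φ a₂
  s1b : s₁ * φ b₁ = φ b₁ * s₁
  s1b' : s₁ * φ ((t₄ * b₁) ^ 2) = φ ((t₄ * b₁) ^ 2) * s₁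
  s4b : s₄ * φ b₁ * s₄ = φ ((t₄ * b₁) ^ 2)
  s4a : s₄ * φ a₂ = φ a₂ * s₄
  s4a' : s₄ * φ ((t₁ * a₂) ^ 2) = φ ((t₁ * a₂) ^ 2) * s₄

end Cfsg.Agent.Lib.Held
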