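import Cfsg.Agent.Lib.Held.ExF

set_option autoImplicit false
set_option maxRecDepth 100000
set_option synthInstance.maxSize 4000
set_option linter.unusedSectionVars false

/-! # Existence of the configuration `N(J) = J : (S₃ × S₃)` -/

namespace Cfsg.Agent.Lib.Held

open Cfsg.Agent.Lib.He Subgroup Cfsg.Agent.Lib.Core Equiv
open Cfsg.Agent.Lib.Jk (mc)

theorem exists_split {N : Type*} [Group N] [Finite N] (ρ : N →* (Bool → Perm (Fin 3)))
    (hs : Function.Surjective ρ) (h2 : ∀ n, ρ n = 1 → ∃ k, n ^ 2 ^ k = 1)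
    (hf : ∀ r : Bool → N, (∀ i, ρ (r i) = sg i (finRotate 3)) → ∀ n, ρ n = 1 → (∀ i, r i * n = n * r i) → n = 1) :
    ∃ κ : (Bool → Perm (Fin 3)) →* N, ∀ σ, ρ (κ σ) = σ := by
  have := Fact.mk Nat.prime_three
  obtain ⟨R⟩ : Nonempty (Sylow 3 N) := inferInstance
  let A := (MonoidHom.compLeft (Perm.sign : Perm (Fin 3) →* ℤˣ) Bool).ker
  have mA : ∀ σ, σ ∈ A ↔ ∀ i, Perm.sign (σ i) = 1 := fun σ => funext_iff
  have hA : ∀ σ ∈ A, ∃ r ∈ R, ρ r = σ := IsPGroup.le_sylow_of_normal (N := A) (fun σ => ⟨1, Subtype.ext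
    (funext fun i => (by decide : ∀ σ : Perm (Fin 3), Perm.sign σ = 1 → σ ^ 3 ^ 1 = 1) _ ((mA _).1 σ.2 i))⟩)
    (R.mapSurjective hs)
  have hR : (R : Subgroup N) ≤ A.comap ρ := fun r hr => (mA _).2 fun i => by
    obtain ⟨k, hk⟩ := R.2 ⟨r, hr⟩
    have := congrArg (fun x => Perm.sign (ρ x i)) (congrArg Subtype.val hk)
    simp only [SubgroupClass.coe_pow, map_pow, Pi.pow_apply, OneMemClass.coe_one, map_one, Pi.one_apply] at this
    refine (Int.units_eq_one_or _).resolve_right fun e => ?_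
    rw [e, Odd.neg_one_pow (Odd.pow (by decide))] at this
    exact absurd this (by decide)
  let ρ' := ρ.comp (normalizer (R : Set N)).subtype
  have b : Function.Bijective ρ' := by
    refine ⟨(injective_iff_map_eq_one _).2 fun n hn => Subtype.ext ?_, fun σ => ?_⟩
    · choose r hr e using fun i => hA (sg i (finRotate 3)) ((mA _).2 (by revert i; decide))
      refine hf r e n hn fun i => ?_
      have m : n * r i * n⁻¹ * (r i)⁻¹ ∈ R := mul_mem (conj_mem_of_mem_normalizer n.2 (hr i)) (inv_mem (hr i))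
      obtain ⟨k, hk⟩ := R.2 ⟨_, m⟩
      obtain ⟨l, hl⟩ := h2 (n * r i * n⁻¹ * (r i)⁻¹) (by simp [show ρ n = 1 from hn])
      have := orderOf_eq_one_iff.1 (Nat.eq_one_of_dvd_coprimes (Nat.Coprime.pow k l (by decide : Nat.Coprime 3 2))
        (orderOf_dvd_of_pow_eq_one (congrArg Subtype.val hk)) (orderOf_dvd_of_pow_eq_one hl))
      exact (mul_inv_eq_iff_eq_mul.1 (mul_inv_eq_one.1 this)).symm
    · obtain ⟨n, rfl⟩ := hs σ
      obtain ⟨k, hk, l, hl, rfl⟩ := mem_sup_of_normal_right.1 ((R.normalizer_sup_eq_top' hR).symm ▸ mem_top n)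
      obtain ⟨r, hr, e⟩ := hA _ hl
      exact ⟨⟨k * r, mul_mem hk (le_normalizer hr)⟩, by simp [ρ', e]⟩
  exact ⟨(Subgroup.subtype _).comp (MulEquiv.ofBijective ρ' b).symm.toMonoidHom, (MulEquiv.ofBijective ρ' b).apply_symm_apply⟩

variable {G : Type*} [Group G] {z : G} {φ : M →* G} {ε : Bool → Bool}

theorem Cfg.conj {t₁ t₄ a b : M} {s₁ s₄ : G} (c : Cfg φ t₁ t₄ a b s₁ s₄) (j : M) :
    Cfg φ (j * t₁ * j⁻¹) (j * t₄ * j⁻¹) (j * a * j⁻¹) (j * b * j⁻¹) (φ j * s₁ * (φ j)⁻¹) (φ j * s₄ * (φ j)⁻¹) := by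
  have e : ∀ x, φ (j * x * j⁻¹) = MulAut.conj (φ j) (φ x) := fun x => by simp
  have k : ∀ {x y : G}, x = y → MulAut.conj (φ j) x = MulAut.conj (φ j) y := congrArg _
  obtain ⟨h1, h2, h3, h4, h5, h6, h7, h8, h9, h10, h11, h12, h13⟩ := c
  rw [← MulAut.conj_apply (φ j), ← MulAut.conj_apply (φ j)]
  exact ⟨by simpa only [map_mul, map_one] using k h1, by simpa only [map_mul, map_one] using k h2,
    by simpa only [e, map_pow, map_one, map_mul (MulAut.conj _)] using k h3,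
    by simpa only [e, map_pow, map_one, map_mul (MulAut.conj _)] using k h4,
    by simpa only [map_mul] using k h5, by simpa only [e, map_mul (MulAut.conj _)] using k h6,
    by simpa only [e, map_mul (MulAut.conj _)] using k h7,
    by simpa only [conj_mul, conj_pow, e, map_mul (MulAut.conj _)] using k h8,
    by simpa only [e, map_mul (MulAut.conj _)] using k h9,
    by simpa only [conj_mul, conj_pow, e, map_mul (MulAut.conj _)] using k h10,
    by simpa only [conj_mul, conj_pow, e, map_mul (MulAut.conj _)] using k h11,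
    by simpa only [e, map_mul (MulAut.conj _)] using k h12,
    by simpa only [conj_mul, conj_pow, e, map_mul (MulAut.conj _)] using k h13⟩

theorem Pre.conj {t₁ t₄ a b : M} (c : Pre t₁ t₄ a b) (j : M) :
    Pre (j * t₁ * j⁻¹) (j * t₄ * j⁻¹) (j * a * j⁻¹) (j * b * j⁻¹) := by
  obtain ⟨⟨h1, h2⟩, h3, h4⟩ := c
  simp only [Pre, conj_mul, h1, h2, h3, h4, and_self]

theorem normal_form {t₁ t₄ a b : M} {s₁ s₄ : G} (c : Cfg φ t₁ t₄ a b s₁ s₄) (p : Pre t₁ t₄ a b)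
    (h1 : t₁ ∈ TI ∧ ty false t₁ = false ∧ ty true t₁ = true) (h4 : t₄ ∈ TI ∧ ty false t₄ = true ∧ ty true t₄ = false)
    (hc : t₁ * t₄ = t₄ * t₁) (ha : a ∈ UL false ∧ inU true (a * rp false 1) = true)
    (hb : b ∈ UL true ∧ inU false (b * rp true 1) = true) :
    ∃ (e₁ f₁ e₄ f₄ : Bool) (s₁ s₄ : G), Cfg φ (mt1 e₁) (mt4 e₁ e₄) (ma2 f₁) (mb1 f₄) s₁ s₄ := by
  obtain ⟨j, hj, e₁, j1, e₄, j4⟩ := nf1 _ h1.1 h1.2.1 h1.2.2 _ h4.1 h4.2.1 h4.2.2 hc
  have c := c.conj j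
  have p := p.conj j
  rw [j1, j4, mul_inv_cancel_right, mul_inv_cancel_right] at c p
  have ha := J1_conj j hj false a ha.1 ha.2
  have hb := J1_conj j hj true b hb.1 hb.2
  obtain ⟨j', -, k1, k4, ⟨f₁, k2⟩, f₄, k3⟩ := nf2 e₁ e₄ _ ((inU_iff _ _).1 ha.1) ha.2 p.1 _
    ((inU_iff _ _).1 hb.1) hb.2 p.2
  have c := c.conj j'
  rw [k1, k4, k2, k3, mul_inv_cancel_right, mul_inv_cancel_right, mul_inv_cancel_right, mul_inv_cancel_right] at c
  exact ⟨_, _, _, _, _, _, c⟩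

/-- `y` lies in the `k`-th nontrivial coset of `Z` in `U i` -/
def Cs (φ : M →* G) (i : Bool) (k : Fin 3) (y : G) : Prop := y ∈ UU φ i ∧ y * φ (rp i k) ∈ UU φ (!i)

section
variable (h : Emb z φ)
include h

theorem rpU (i : Bool) (k : Fin 3) : φ (rp i k) ∈ UU φ i := h.memU'.2 (rp_mem i k).1

theorem cs_iff {i : Bool} {k : Fin 3} {a : M} : Cs φ i k (φ a) ↔ a ∈ UL i ∧ inU (!i) (a * rp i k) = true := by
  rw [Cs, ← map_mul, h.memU', h.memU', inU_iff]

omit h in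
theorem Cs.ex {i : Bool} {k : Fin 3} {y : G} (c : Cs φ i k y) : ∃ a, φ a = y := by
  obtain ⟨a, -, e⟩ := Emb.memU.1 c.1; exact ⟨a, e⟩

theorem cs_rp (i : Bool) (k : Fin 3) : Cs φ i k (φ (rp i k)) :=
  ⟨rpU h i k, by rw [Emb.U_sq (rpU h i k)]; exact one_mem _⟩

theorem cs_uniq {i : Bool} {k l : Fin 3} {y : G} (c : Cs φ i k y) (d : Cs φ i l y) : k = l :=
  rp_ne i k l (h.memU'.1 (by
    have := mul_mem (inv_mem c.2) d.2
    rwa [mul_inv_rev, mul_assoc, inv_mul_cancel_left, inv_eq_of_mul_eq_one_right (Emb.U_sq (rpU h i k)),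
      ← map_mul] at this))

omit h in
theorem Cs.mul {i : Bool} {k : Fin 3} {y w : G} (c : Cs φ i k y) (d : Cs φ i k w) (m : φ (rp i k) ∈ UU φ i) (j : Bool) :
    y * w ∈ UU φ j := by
  obtain rfl | rfl := Bool.eq_or_eq_not j i
  · exact mul_mem c.1 d.1
  · have := mul_mem c.2 d.2
    rwa [Emb.U_comm d.1 m, mul_assoc, ← mul_assoc (φ _), Emb.U_sq m, one_mul] at this

omit h in
theorem Cs.mulZ {i : Bool} {k : Fin 3} {y w : G} (c : Cs φ i k y) (d : ∀ j, w ∈ UU φ j) (m : φ (rp i k) ∈ UU φ i) :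
    Cs φ i k (y * w) :=
  ⟨mul_mem c.1 (d i), by rw [mul_assoc, Emb.U_comm (d i) m, ← mul_assoc]; exact mul_mem c.2 (d _)⟩

theorem cs_conj (i : Bool) (n : NJ φ) (k : Fin 3) : ∃ l, ∀ y, Cs φ i k y → Cs φ i l (n * y * (n : G)⁻¹) := by
  have m := conj_mem_of_mem_normalizer (mem_NJ.1 n.2 i) (rpU h i k)
  obtain ⟨a, ha, e⟩ := Emb.memU.1 m
  rcases rp_ex i a ha with e1 | ⟨l, e1⟩
  · have := conj_mem_of_mem_normalizer' (mem_NJ.1 n.2 (!i)) (e ▸ h.memU'.2 e1)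
    simp only [mul_assoc, inv_mul_cancel_left, inv_mul_cancel, mul_one, h.memU', (rp_mem i k).2] at this
    exact absurd this (by simp)
  · refine ⟨l, fun y c => ⟨conj_mem_of_mem_normalizer (mem_NJ.1 n.2 i) c.1, ?_⟩⟩
    have := mul_mem (conj_mem_of_mem_normalizer (mem_NJ.1 n.2 (!i)) c.2) (h.memU'.2 e1)
    rwa [map_mul, e, ← conj_mul, mul_assoc (n * y * _), ← mul_assoc (n * φ _ * _), Emb.U_sq m,
      one_mul] at this

theorem exists_rho : ∃ ρ : NJ φ →* (Bool → Perm (Fin 3)),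
    ∀ i (n : NJ φ) k y, Cs φ i k y → Cs φ i (ρ n i k) (n * y * (n : G)⁻¹) := by
  choose f hf using cs_conj h
  refine ⟨MonoidHom.pi fun i => MonoidHom.toHomPerm ⟨⟨f i, funext fun k => ?_⟩, fun n m => funext fun k => ?_⟩, hf⟩
  · exact cs_uniq h (hf i 1 k _ (cs_rp h i k)) (show Cs φ i k _ by simpa using cs_rp h i k)
  · exact cs_uniq h (hf i (n * m) k _ (cs_rp h i k))
      (show Cs φ i (f i n (f i m k)) _ by simpa [mul_assoc] using hf i n _ _ (hf i m k _ (cs_rp h i k)))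

theorem cs_bz {k l : Fin 3} {y w : G} (c : Cs φ false k y) (d : Cs φ true l w) : y * w * (y * w) = φ (bz k l) := by
  obtain ⟨a, rfl⟩ := c.ex
  obtain ⟨b, rfl⟩ := d.ex
  rw [cs_iff h] at c d
  rw [← bz_eq a c.1 k c.2 b d.1 l d.2, map_mul, map_mul]

variable {ρ : NJ φ →* (Bool → Perm (Fin 3))}
  (hρ : ∀ i (n : NJ φ) k y, Cs φ i k y → Cs φ i (ρ n i k) (n * y * (n : G)⁻¹))
include hρ

theorem conj_bz (n : NJ φ) (k l : Fin 3) : n * φ (bz k l) * (n : G)⁻¹ = φ (bz (ρ n false k) (ρ n true l)) := by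
  rw [← cs_bz h (hρ _ n _ _ (cs_rp h false k)) (hρ _ n _ _ (cs_rp h true l)), conj_mul, conj_mul,
    cs_bz h (cs_rp h false k) (cs_rp h true l)]

theorem fpf_Z {i : Bool} {r : NJ φ} (hr : ρ r = sg i (finRotate 3)) {w : G} (hw : ∀ j, w ∈ UU φ j)
    (hc : r * w = w * r) : w = 1 := by
  obtain ⟨a, ha, rfl⟩ := h.memZ hw
  obtain ⟨k, l, k', l', rfl⟩ := Z_gen a ha
  rw [bz_fpf i k l k' l' (h.inj (by
    rw [map_mul, ← hr, ← conj_bz h hρ, ← conj_bz h hρ, conj_mul, ← map_mul, hc, mul_inv_cancel_right])), map_one]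

end

section
variable [Finite G] (h : Pat z φ ε) {ρ : NJ φ →* (Bool → Perm (Fin 3))}
  (hρ : ∀ i (n : NJ φ) k y, Cs φ i k y → Cs φ i (ρ n i k) (n * y * (n : G)⁻¹))
include h hρ

theorem mem_T {n : NJ φ} (hn : ∀ i, ρ n i 0 = 0) :
    ∃ a : M, φ a = n ∧ a.p.val < 8 ∧ ∀ i, ty i a = true ↔ ρ n i 1 = 1 := by
  have := conj_bz h.toEmb hρ n 0 0
  rw [hn, hn, bz00, h.map_z, mul_inv_eq_iff_eq_mul] at this
  obtain ⟨a, ha, e⟩ : (n : G) ∈ TT φ := h.NJ_inf ▸ ⟨n.2, mc.2 this⟩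
  refine ⟨a, e, ha, fun i => ?_⟩
  have c := hρ i n 1 _ (cs_rp h.toEmb i 1)
  rw [← e, ← map_inv, ← map_mul, ← map_mul] at c
  exact ⟨fun t => cs_uniq h.toEmb c ((cs_iff h.toEmb).2 ⟨((cs_iff h.toEmb).1 c).1, t⟩),
    fun t => ((cs_iff h.toEmb).1 (by rwa [t] at c)).2⟩

theorem mem_J {n : NJ φ} (hn : ρ n = 1) : ∃ a : M, φ a = n ∧ a.p.val < 8 ∧ inJ a = true := by
  obtain ⟨a, e, ha, t⟩ := mem_T h hρ (n := n) (by simp [hn])
  exact ⟨a, e, ha, by simp [inJ, ha, t, hn]⟩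

theorem rho_surj : Function.Surjective ρ := by
  have : Nat.card ρ.ker ≤ 256 := by
    have : ((ρ.ker.map (NJ φ).subtype : Subgroup G) : Set G) ⊆ φ '' ((LM.filter inJ).toFinset : Finset M) := by
      rintro _ ⟨n, hn, rfl⟩
      obtain ⟨a, e, -, ha⟩ := mem_J h hρ hn
      exact ⟨a, by simp [mem_LM, ha], e⟩
    have := (Set.ncard_le_ncard this).trans Set.ncard_image_le
    rw [Set.ncard_coe_finset, ← Cfsg.Agent.Lib.Root.J1.card_eq_ncard, card_map_of_injective (subtype_injective _)] at this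
    exact this.trans ((List.toFinset_card_le _).trans cnt_J.le)
  have e := ρ.ker.card_mul_index
  rw [h.card_NJ, index_ker] at e
  refine MonoidHom.range_eq_top.1 (eq_top_of_le_card _ ?_)
  rw [show Nat.card (Bool → Perm (Fin 3)) = 36 by simp [Nat.card_perm]; rfl]
  by_contra hc
  nlinarith

theorem rho_split : ∃ κ : (Bool → Perm (Fin 3)) →* NJ φ, ∀ σ, ρ (κ σ) = σ := by
  refine exists_split ρ (rho_surj h hρ) (fun n hn => ?_) fun r hr n hn hc => ?_
  · obtain ⟨a, e, ha, -⟩ := mem_J h hρ hn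
    obtain ⟨k, hk⟩ := h.pT ⟨n, e ▸ h.memT'.2 ha⟩
    exact ⟨k, Subtype.ext (congrArg Subtype.val hk :)⟩
  · obtain ⟨a, e, ha, hJ⟩ := mem_J h hρ hn
    have hc' : ∀ i, (r i : G) * n = n * r i := fun i => congrArg Subtype.val (hc i)
    refine Subtype.ext (fpf_Z h.toEmb hρ (hr false) (fun j => ?_) (hc' _))
    obtain ⟨i, rfl⟩ : ∃ i, j = !i := ⟨!j, by simp⟩
    rcases J_dec i a.p ha a.e hJ with e1 | ⟨k, e1⟩
    · exact e ▸ h.memU'.2 e1
    · have c := hρ i (r i) k _ (cs_rp h.toEmb i k)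
      have m : φ (rp i k) * n ∈ UU φ (!i) := e ▸ map_mul φ _ _ ▸ h.memU'.2 e1
      have := cs_uniq h.toEmb c ⟨c.1, by
        have := mul_mem (conj_mem_of_mem_normalizer (mem_NJ.1 (r i).2 (!i)) m) (inv_mem m)
        rwa [← conj_mul, hc', mul_inv_cancel_right, mul_inv_rev, mul_assoc _ (n : G), mul_inv_cancel_left,
          inv_eq_of_mul_eq_one_right (Emb.U_sq (rpU h.toEmb i k))] at this⟩
      rw [hr] at this
      exact absurd this ((by decide : ∀ i k, sg i (finRotate 3) i k ≠ k) i k)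

end

theorem exists_cfg [Finite G] (h : Pat z φ ε) :
    ∃ (e1 f1 e4 f4 : Bool) (s1 s4 : G), Cfg φ (mt1 e1) (mt4 e1 e4) (ma2 f1) (mb1 f4) s1 s4 := by
  obtain ⟨ρ, hρ⟩ := exists_rho h.toEmb
  obtain ⟨κ, hκ⟩ := rho_split h hρ
  let g : (Bool → Perm (Fin 3)) →* G := (NJ φ).subtype.comp κ
  have hg : ∀ i σ k y, Cs φ i k y → Cs φ i (σ i k) (g σ * y * (g σ)⁻¹) := fun i σ k y c => by
    have := hρ i (κ σ) k y c
    rwa [hκ] at this
  let r := fun i => g (sg (!i) (finRotate 3))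
  have uq : ∀ {i k y w}, Cs φ i k y → Cs φ i k w → r i * y = y * r i → r i * w = w * r i → y = w := by
    intro i k y w c d e1 e2
    have := fpf_Z h.toEmb hρ (hκ (sg (!i) (finRotate 3))) (w := y * w) (c.mul d (rpU h.toEmb i k)) (by
      show r i * _ = _ * r i
      rw [← mul_assoc, e1, mul_assoc, e2, mul_assoc])
    rw [eq_inv_of_mul_eq_one_left this, inv_eq_of_mul_eq_one_right (Emb.U_sq d.1)]
  have sn : ∀ i σ, sg (!i) σ i = 1 := fun i σ => by cases i <;> rfl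
  have sy : ∀ i σ, sg i σ i = σ := fun i σ => by cases i <;> rfl
  have ex : ∀ i k, ∃ y, Cs φ i k y ∧ r i * y = y * r i := fun i k => by
    have c0 := cs_rp h.toEmb i k
    have c1 := hg i (sg (!i) (finRotate 3)) k _ c0
    rw [sn] at c1
    have c2 := hg i (sg (!i) (finRotate 3)) k _ c1
    rw [sn] at c2
    refine ⟨_, c0.mulZ (c1.mul c2 c0.1) c0.1, mul_inv_eq_iff_eq_mul.1 ?_⟩
    have e : r i * (r i * r i) = 1 := by
      rw [← map_mul, ← map_mul, (by decide : ∀ i, sg (!i) (finRotate 3) * (sg (!i) (finRotate 3) *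
        sg (!i) (finRotate 3)) = 1), map_one]
    have k : ∀ u w : G, w * (w * w) = 1 → w * (u * (w * u * w⁻¹ * (w * (w * u * w⁻¹) * w⁻¹))) * w⁻¹ =
        w * u * w⁻¹ * (w * (w * u * w⁻¹) * w⁻¹) * u := fun u w e => by
      calc _ = w * u * w⁻¹ * (w * (w * u * w⁻¹) * w⁻¹) * (w * (w * w) * u * (w * (w * w))⁻¹) := by group
        _ = _ := by rw [e, one_mul, inv_one, mul_one]
    exact (k _ _ e).trans (Emb.U_comm (mul_mem c1.1 c2.1) c0.1)
  choose x hx cx using ex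
  have act : ∀ i σ k, g σ * x i k * (g σ)⁻¹ = x i (σ i k) := fun i σ k => uq (hg i σ k _ (hx i k)) (hx _ _) (by
    obtain ⟨n, e⟩ := (by decide +kernel : ∀ i σ, ∃ n ∈ [1, 2], sg (!i) (finRotate 3) = σ * sg (!i) (finRotate 3) ^ n * σ⁻¹) i σ
    have := congrArg g e.2
    rw [map_mul, map_mul, map_inv, map_pow] at this
    rw [show r i = _ from this, conj_mul, conj_mul, ((show Commute (r i) _ from cx i k).pow_left n).eq]) (cx _ _)
  have act' : ∀ i σ k, g σ * x i k = x i (σ i k) * g σ := fun i σ k => by rw [← act, inv_mul_cancel_right]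
  have ml : ∀ i, x i 2 * x i 1 = x i 0 := fun i => uq (by
    obtain ⟨a, ha⟩ := (hx i 2).ex
    obtain ⟨b, hb⟩ := (hx i 1).ex
    have c := (cs_iff h.toEmb).1 (ha ▸ hx i 2)
    have d := (cs_iff h.toEmb).1 (hb ▸ hx i 1)
    exact ⟨mul_mem (hx i 2).1 (hx i 1).1, by
      rw [← ha, ← hb, ← map_mul, ← map_mul, h.memU']; exact rp_mul i a c.1 c.2 b d.1 d.2⟩) (hx i 0)
    (by rw [← mul_assoc, cx, mul_assoc, cx, mul_assoc]) (cx _ _)
  have inv : ∀ i k l, g (sg i (swap k l)) * g (sg i (swap k l)) = 1 := fun i k l => by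
    rw [← map_mul, (by decide : ∀ i k l, sg i (swap k l) * sg i (swap k l) = 1), map_one]
  have tt : ∀ i, ∃ t : M, φ t = g (sg i (swap 1 2)) ∧ t ∈ TI ∧ ty i t = false ∧ ty (!i) t = true := fun i => by
    obtain ⟨t, e, ht, hty⟩ := mem_T h hρ (n := κ (sg i (swap 1 2))) (by rw [hκ]; revert i; decide)
    refine ⟨t, e, mem_TI t.p ht t.e (h.inj (by show φ (t * t) = φ 1; rw [map_mul, e, map_one]; exact inv i 1 2)),
      Bool.eq_false_iff.2 fun e1 => ?_, (hty _).2 (by rw [hκ]; cases i <;> rfl)⟩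
    have := (hty i).1 e1
    rw [hκ, sy] at this
    exact absurd this (by decide)
  choose t ht hti using tt
  obtain ⟨a, ha⟩ := (hx false 1).ex
  obtain ⟨b, hb⟩ := (hx true 1).ex
  have sq' : ∀ i y, φ y = x i 1 → φ (t i * y * (t i * y)) = x i 0 := fun i y hy => by
    rw [map_mul, map_mul, ht, hy, ← ml, ← mul_assoc, act', mul_assoc (x _ _), inv, mul_one, sy,
      swap_apply_left]
  have hc : ∀ σ τ, σ * τ = τ * σ → g σ * g τ = g τ * g σ := fun σ τ e => by rw [← map_mul, e, map_mul]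
  have cm : ∀ i σ k, g (sg (!i) σ) * x i k = x i k * g (sg (!i) σ) := fun i σ k => by rw [act', sn, Perm.one_apply]
  have br : ∀ i, (g (sg i (swap 0 1)) * φ (t i)) ^ 3 = 1 := fun i => by
    rw [ht, ← map_mul, ← map_pow, (by decide : ∀ i, (sg i (swap 0 1) * sg i (swap 1 2)) ^ 3 = 1), map_one]
  refine normal_form (t₁ := t false) (t₄ := t true) (a := a) (b := b) (s₁ := g (sg false (swap 0 1)))
    (s₄ := g (sg true (swap 0 1))) ⟨inv _ _ _, inv _ _ _, br _, br _, hc _ _ (by decide), ht _ ▸ hc _ _ (by decide),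
      ht _ ▸ hc _ _ (by decide), ?_, hb ▸ cm true _ _, ?_, ?_, ha ▸ cm false _ _, ?_⟩
    ⟨⟨?_, ?_⟩, ?_, ?_⟩ (hti false) ⟨(hti true).1, (hti true).2.2, (hti true).2.1⟩
    (h.comm_iff.1 (by rw [ht, ht]; exact hc _ _ (by decide))) ((cs_iff h.toEmb).1 (ha ▸ hx false 1))
    ((cs_iff h.toEmb).1 (hb ▸ hx true 1))
  · rw [sq, sq' _ _ ha, act', mul_assoc, inv, mul_one, sy, swap_apply_left, ha]
  · rw [sq, sq' _ _ hb]; exact cm true _ _
  · rw [sq, sq' _ _ hb, hb, act', mul_assoc, inv, mul_one, sy, swap_apply_right]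
  · rw [sq, sq' _ _ ha]; exact cm false _ _
  · exact h.comm_iff.1 (by rw [ht, ha]; exact cm false _ _)
  · exact h.comm_iff.1 (by rw [ht, sq' _ _ ha]; exact cm false _ _)
  · exact h.comm_iff.1 (by rw [ht, hb]; exact cm true _ _)
  · exact h.comm_iff.1 (by rw [ht, sq' _ _ hb]; exact cm true _ _)

end Cfsg.Agent.Lib.Held
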