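import Cfsg.Agent.Lib.Held.Cfg

set_option autoImplicit false
set_option maxRecDepth 100000
set_option synthInstance.maxSize 4000

/-! # Finite checks for the configuration `N(J) = J : (S₃ × S₃)` -/

namespace Cfsg.Agent.Lib.Held

open Cfsg.Agent.Lib.He

/-- representatives of the nontrivial cosets of `Z` in `U i` -/
def rp (i : Bool) (k : Fin 3) : M :=
  cond i ([⟨0, 16⟩, ⟨2, 0⟩, ⟨2, 16⟩].getD k.val 1) ([⟨0, 2⟩, ⟨1, 0⟩, ⟨1, 2⟩].getD k.val 1)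
def bz (k l : Fin 3) : M := rp false k * rp true l * (rp false k * rp true l)
def ty (i : Bool) (a : M) : Bool := inU (!i) (a * rp i 1 * a⁻¹ * rp i 1)
def inJ (a : M) : Bool := Nat.blt a.p.val 8 && ty false a && ty true a
def sg (i : Bool) (σ : Equiv.Perm (Fin 3)) : Bool → Equiv.Perm (Fin 3) := fun j => if j = i then σ else 1
def J1 : List M := [⟨0, 0⟩, ⟨0, 4⟩, ⟨0, 8⟩, ⟨0, 12⟩, ⟨1, 0⟩, ⟨1, 4⟩, ⟨1, 8⟩, ⟨1, 12⟩, ⟨2, 0⟩, ⟨2, 4⟩, ⟨2, 8⟩,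
  ⟨2, 12⟩, ⟨3, 0⟩, ⟨3, 4⟩, ⟨3, 8⟩, ⟨3, 12⟩, ⟨4, 0⟩, ⟨4, 4⟩, ⟨4, 8⟩, ⟨4, 12⟩, ⟨5, 0⟩, ⟨5, 4⟩, ⟨5, 8⟩, ⟨5, 12⟩,
  ⟨6, 0⟩, ⟨6, 4⟩, ⟨6, 8⟩, ⟨6, 12⟩, ⟨7, 0⟩, ⟨7, 4⟩, ⟨7, 8⟩, ⟨7, 12⟩]
def J2 : List M := [⟨0, 0⟩, ⟨0, 2⟩, ⟨0, 10⟩, ⟨0, 16⟩, ⟨0, 20⟩, ⟨0, 18⟩, ⟨0, 22⟩, ⟨0, 26⟩, ⟨0, 30⟩]

theorem rp_mem : ∀ i k, inU i (rp i k) = true ∧ inU (!i) (rp i k) = false := by decide +kernel
theorem rp_ne : ∀ i k l, inU (!i) (rp i k * rp i l) = true → k = l := by decide +kernel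
theorem rp_ex : ∀ i, ∀ a ∈ UL i, inU (!i) a = true ∨ ∃ k, inU (!i) (a * rp i k) = true := by decide +kernel
theorem rp_mul : ∀ i, ∀ a ∈ UL i, inU (!i) (a * rp i 2) = true → ∀ b ∈ UL i, inU (!i) (b * rp i 1) = true →
    inU (!i) (a * b * rp i 0) = true := by decide +kernel
theorem rp_mul3 : ∀ i, ∀ a ∈ UL i, ∀ k, inU (!i) (a * rp i k) = true → ∀ b ∈ UL i, inU (!i) (b * rp i k) = true →
    inU (!i) (a * b) = true ∧ ∀ w ∈ ZL, inU (!i) (a * w * rp i k) = true := by decide +kernel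
theorem bz_eq : ∀ a ∈ UL false, ∀ k, inU true (a * rp false k) = true → ∀ b ∈ UL true, ∀ l,
    inU false (b * rp true l) = true → a * b * (a * b) = bz k l := by decide +kernel
theorem bz00 : bz 0 0 = z0 := by decide +kernel
theorem Z_gen : ∀ w ∈ ZL, ∃ k l k' l', w = bz k l * bz k' l' := by decide +kernel
theorem bz_fpf : ∀ i k l k' l', bz (sg i (finRotate 3) false k) (sg i (finRotate 3) true l) *
    bz (sg i (finRotate 3) false k') (sg i (finRotate 3) true l') = bz k l * bz k' l' →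
    bz k l * bz k' l' = 1 := by decide +kernel
theorem J_dec : ∀ i, ∀ p : Fin 168, p.val < 8 → ∀ e, inJ ⟨p, e⟩ = true →
    inU (!i) ⟨p, e⟩ = true ∨ ∃ k, inU (!i) (rp i k * ⟨p, e⟩) = true := by decide +kernel
theorem cnt_J : (LM.filter inJ).length = 256 := by decide +kernel

/-- relations between the elements of `T` -/
def Pre (t₁ t₄ a b : M) : Prop := (t₄ * a = a * t₄ ∧ t₄ * (t₁ * a * (t₁ * a)) = t₁ * a * (t₁ * a) * t₄) ∧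
  t₁ * b = b * t₁ ∧ t₁ * (t₄ * b * (t₄ * b)) = t₄ * b * (t₄ * b) * t₁

theorem nf1 : ∀ s ∈ TI, ty false s = false → ty true s = true → ∀ t ∈ TI, ty false t = true →
    ty true t = false → s * t = t * s → ∃ j ∈ J1, ∃ e₁, j * s = mt1 e₁ * j ∧ ∃ e₄, j * t = mt4 e₁ e₄ * j := by
  decide +kernel
theorem J1_conj : ∀ j ∈ J1, ∀ i, ∀ a ∈ UL i, inU (!i) (a * rp i 1) = true →
    inU i (j * a * j⁻¹) = true ∧ inU (!i) (j * a * j⁻¹ * rp i 1) = true := by decide +kernel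
theorem nf2 : ∀ e₁ e₄, ∀ a ∈ UL false, inU true (a * rp false 1) = true →
    (mt4 e₁ e₄ * a = a * mt4 e₁ e₄ ∧ mt4 e₁ e₄ * (mt1 e₁ * a * (mt1 e₁ * a)) = mt1 e₁ * a * (mt1 e₁ * a) * mt4 e₁ e₄) →
    ∀ b ∈ UL true, inU false (b * rp true 1) = true → (mt1 e₁ * b = b * mt1 e₁ ∧
      mt1 e₁ * (mt4 e₁ e₄ * b * (mt4 e₁ e₄ * b)) = mt4 e₁ e₄ * b * (mt4 e₁ e₄ * b) * mt1 e₁) →
    ∃ j ∈ J2, j * mt1 e₁ = mt1 e₁ * j ∧ j * mt4 e₁ e₄ = mt4 e₁ e₄ * j ∧ (∃ f, j * a = ma2 f * j) ∧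
      ∃ f, j * b = mb1 f * j := by decide +kernel

end Cfsg.Agent.Lib.Held
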