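import Cfsg.Agent.Lib.Held.Cfg
import Cfsg.Agent.Lib.Core.Generation
import Cfsg.Agent.Lib.PG.Iso

set_option autoImplicit false
set_option maxRecDepth 100000
set_option synthInstance.maxSize 2000

/-! # The group is generated by `C(z)` and `N(J)` -/

namespace Cfsg.Agent.Lib.Held

open Subgroup Cfsg.Agent.Lib.Core Cfsg.Agent.Lib.He
open Cfsg.Agent.Lib.Jk (mc)

/-- the identity and the transvections of the complement -/
def TP : List M := ((List.finRange 168).map pp).filter fun a => Nat.beq a.p.val 0 || Nat.blt (cls a) 4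
/-- generators of `O₂` -/
def GE : List M := [⟨0, 1⟩, ⟨0, 32⟩, ⟨0, 2⟩, ⟨0, 16⟩, ⟨0, 4⟩, ⟨0, 8⟩]

theorem TP_spec : ∀ a ∈ TP, a = 1 ∨ cls a < 4 := by decide +kernel
theorem pp_gen : ∀ p, ∃ a ∈ TP, ∃ b ∈ TP, a * b * pp p ∈ TP := by decide +kernel
theorem ee_gen : ∀ e : Fin 128, (ee e = ee (fin 127 (e.val % 8)) * ee (fin 127 (e.val &&& 56)) ∨
    ee e = ee (fin 127 (e.val % 8)) * ee (fin 127 (e.val &&& 56)) * z0) ∧
    (ee (fin 127 (e.val % 8)) = 1 ∨ cls (ee (fin 127 (e.val % 8))) < 4) ∧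
    (ee (fin 127 (e.val &&& 56)) = 1 ∨ cls (ee (fin 127 (e.val &&& 56))) < 4) ∧ ee e * ee e * (ee e * ee e) = 1 := by
  decide +kernel
theorem rep_z : ∀ k < 8, rep k = z0 ∨ ∃ g ∈ GE, rep k * (g * rep k * g⁻¹) = z0 ∨
    ∃ f ∈ GE, rep k * (g * rep k * g⁻¹) * (f * (rep k * (g * rep k * g⁻¹)) * f⁻¹) = z0 := by decide +kernel
theorem cen_GE : ∀ a : M, (∀ g ∈ GE, a * g = g * a) → a = 1 ∨ a = z0 := by decide +kernel
theorem comm_p : ∀ p, pm (pm (pm p 0) (pi p)) (pi 0) = 0 := by decide +kernel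
theorem GE_p : ∀ g ∈ GE, g.p = 0 := by decide +kernel
theorem cfg_comm : ∀ e1 f1 e4 f4 : Bool,
    (mt1 e1 * ma2 f1) ^ 2 * mb1 f4 * ((mt1 e1 * ma2 f1) ^ 2)⁻¹ * (mb1 f4)⁻¹ = aa false ∧
    (mt1 e1 * ma2 f1) ^ 2 * (mt4 e1 e4 * mb1 f4) ^ 2 * ((mt1 e1 * ma2 f1) ^ 2)⁻¹ * ((mt4 e1 e4 * mb1 f4) ^ 2)⁻¹ = z0 ∧
    ma2 f1 * mb1 f4 * (ma2 f1)⁻¹ * (mb1 f4)⁻¹ = a3 ∧
    ma2 f1 * (mt4 e1 e4 * mb1 f4) ^ 2 * (ma2 f1)⁻¹ * ((mt4 e1 e4 * mb1 f4) ^ 2)⁻¹ = aa true := by decide +kernel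

theorem eq_top_of_cls {N : Subgroup M} (h : ∀ a, cls a < 4 → a ∈ N) : N = ⊤ := by
  have k : ∀ a, a = 1 ∨ cls a < 4 → a ∈ N := by
    rintro a (rfl | ha)
    exacts [one_mem _, h a ha]
  refine eq_top_iff.2 fun a _ => ee_pp a ▸ mul_mem ?_ ?_
  · obtain ⟨h1 | h1, h2, h3, -⟩ := ee_gen a.e <;> rw [h1]
    exacts [mul_mem (k _ h2) (k _ h3), mul_mem (mul_mem (k _ h2) (k _ h3)) (h _ (by decide +kernel))]
  · obtain ⟨x, hx, y, hy, h1⟩ := pp_gen a.p
    exact (mul_mem_cancel_left (mul_mem (k _ (TP_spec _ hx)) (k _ (TP_spec _ hy)))).1 (k _ (TP_spec _ h1))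

variable {G : Type*} [Group G] [Finite G] {z : G} {φ : M →* G}

omit [Finite G] in
theorem inf_cent_eq_bot (h : Emb z φ) {N : Subgroup G} [hN : N.Normal] (ho : ¬ 2 ∣ Nat.card N) :
    N ⊓ centralizer {z} = ⊥ := by
  have k : ∀ y ∈ N, y ^ 4 = 1 → y = 1 := fun y hy h4 => orderOf_eq_one_iff.1 (Nat.eq_one_of_dvd_coprimes
    (Nat.Coprime.pow_left 2 ((Nat.Prime.coprime_iff_not_dvd Nat.prime_two).2 ho)) (orderOf_dvd_of_pow_eq_one h4)
    (orderOf_dvd_natCard N hy))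
  refine eq_bot_iff.2 fun y hy => ?_
  obtain ⟨a, rfl⟩ := h.surj y (mc.1 hy.2)
  rcases cen_GE a (fun g hg => by
    have h1 : a * g * a⁻¹ * g⁻¹ = ee (a * g * a⁻¹ * g⁻¹).e := M.ext' (by
      change pm (pm (pm a.p g.p) (pi a.p)) (pi g.p) = 0
      rw [GE_p g hg, comm_p]) rfl
    have h2 := k (φ (a * g * a⁻¹ * g⁻¹)) (by
      simpa [mul_assoc] using mul_mem hy.1 (hN.conj_mem _ (inv_mem hy.1) (φ g))) (by
      rw [← map_pow, h1, show (4 : ℕ) = 2 + 2 from rfl, pow_add, pow_two, (ee_gen _).2.2.2, map_one])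
    rw [h.eq_one, mul_inv_eq_one, mul_inv_eq_iff_eq_mul] at h2
    exact h2) with rfl | rfl
  · simp
  · exact k _ hy.1 (by rw [h.map_z, show (4 : ℕ) = 2 * 2 from rfl, pow_mul, pow_two z, h.iv.2, one_pow])

theorem simple_of_fus (h : Emb z φ) (h1 : ∀ i, IsConj z (φ (aa i))) (h3 : IsConj z (φ a3)) : IsSimpleGroup G := by
  have : Nontrivial G := ⟨z, 1, h.iv.1⟩
  refine ⟨fun N hN => ?_⟩
  have cN : ∀ {x y : G}, IsConj x y → x ∈ N → y ∈ N := fun hc hx => by
    obtain ⟨g, rfl⟩ := isConj_iff.1 hc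
    exact hN.conj_mem _ hx g
  by_cases ho : 2 ∣ Nat.card N
  · right
    obtain ⟨u, hu⟩ := exists_prime_orderOf_dvd_card' 2 ho
    have hu' : orderOf (u : G) = 2 := by rwa [orderOf_coe]
    obtain ⟨g, -, e⟩ := h.sylT.exists_conj_le (Invol.isPGroup_zpowers_of_involution hu') le_top
    obtain ⟨a, -, ha⟩ := map_conj_le_iff.1 e u (mem_zpowers _)
    have h4 : cls a < 8 := h.iv_iff.1 (ha ▸ Root.J1.Iv.conj ⟨by rintro h; simp [h] at hu',
      Invol.mul_self_of_orderOf_two hu'⟩ g)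
    have h5 : φ (rep (cls a)) ∈ N := cN (h.isConj_rep h4).symm (ha ▸ hN.conj_mem _ u.2 g)
    have h6 : ∀ x g : M, φ x ∈ N → φ (x * (g * x * g⁻¹)) ∈ N := fun x g hx => by
      simpa using mul_mem hx (hN.conj_mem _ hx (φ g))
    have hz : z ∈ N := by
      rw [← h.map_z]
      rcases rep_z _ h4 with e | ⟨g, -, e | ⟨f, -, e⟩⟩ <;> rw [← e]
      exacts [h5, h6 _ _ h5, h6 _ _ (h6 _ _ h5)]
    have h7 : N.comap φ = ⊤ := eq_top_of_cls fun b hb => cN (h.isConj_rep (by omega)) (by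
      generalize cls b = k at hb
      interval_cases k
      exacts [h.map_z ▸ hz, cN (h1 false) hz, cN (h1 true) hz, cN h3 hz])
    have h8 : ∀ b, φ b ∈ N := fun b => (h7 ▸ mem_top b : b ∈ N.comap φ)
    have h9 : TT φ ≤ N := by rintro _ ⟨b, -, rfl⟩; exact h8 b
    refine eq_top_iff.2 fun g _ => ?_
    have s1 := h.sylT.mono h9 le_top
    have s2 := s1.conj g
    rw [show N.map (MulAut.conj g).toMonoidHom = N from map_conj_eq_iff.2 (by simp [normalizer_eq_top])] at s2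
    obtain ⟨c, hc, e1⟩ := s2.exists_conj s1
    rw [map_conj_map_conj, map_conj_eq_iff] at e1
    obtain ⟨b, hb⟩ := h.surj _ (h.normT e1)
    exact (mul_mem_cancel_left hc).1 (hb ▸ h8 b)
  · left
    let A : Subgroup M :=
      { carrier := {a | a ∈ [1, z0, aa false, aa false * z0]}
        one_mem' := by decide +kernel
        mul_mem' := fun {a b} ha hb => (by decide +kernel : ∀ a ∈ [1, z0, aa false, aa false * z0],
          ∀ b ∈ [1, z0, aa false, aa false * z0], a * b ∈ [1, z0, aa false, aa false * z0]) a ha b hb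
        inv_mem' := fun {a} ha => (by decide +kernel : ∀ a ∈ [1, z0, aa false, aa false * z0],
          a⁻¹ ∈ [1, z0, aa false, aa false * z0]) a ha }
    have hA : ∀ a ∈ [1, z0, aa false, aa false * z0], a * a = 1 ∧ (a = 1 ∨ cls a < 2) ∧
      ∀ b ∈ [1, z0, aa false, aa false * z0], a * b = b * a := by decide +kernel
    have hp : IsPGroup 2 (A.map φ) := by
      rintro ⟨_, a, ha, rfl⟩
      exact ⟨1, Subtype.ext (by
        change φ a ^ 2 ^ 1 = 1
        rw [pow_one, pow_two, ← map_mul, (hA a ha).1, map_one])⟩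
    refine le_bot_iff.1 (le_of_centralizers (A := A.map φ) ⟨⟨?_⟩⟩ (fun hc => ?_) (by simp [normalizer_eq_top]) ?_ ?_)
    · rintro ⟨_, a, ha, rfl⟩ ⟨_, b, hb, rfl⟩
      exact Subtype.ext (h.comm_iff.2 ((hA a ha).2.2 b hb))
    · obtain ⟨⟨_, a, ha, rfl⟩, hg⟩ := hc.exists_generator
      have k : ∀ b ∈ A, b = 1 ∨ b = a := fun b hb => by
        obtain ⟨n, hn⟩ := hg ⟨φ b, b, hb, rfl⟩
        have h2 : φ a ^ n = φ b := congrArg Subtype.val hn
        rw [← map_zpow, h.eq_iff, zpow_eq_zpow_emod n (show a ^ (2 : ℤ) = 1 by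
          rw [zpow_two, (hA a ha).1])] at h2
        rcases Int.emod_two_eq_zero_or_one n with e | e <;> rw [e] at h2
        · exact .inl (by simpa using h2.symm)
        · exact .inr (by simpa using h2.symm)
      have k1 := (k z0 (by simp [A])).resolve_left (by decide +kernel)
      have k2 := (k (aa false) (by simp [A])).resolve_left (by decide +kernel)
      exact absurd (k1.trans k2.symm) (by decide +kernel)
    · obtain ⟨n, hn⟩ := IsPGroup.iff_card.1 hp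
      rw [hn]
      exact Nat.Coprime.pow_left n ((Nat.Prime.coprime_iff_not_dvd Nat.prime_two).2 ho)
    · rintro _ ⟨a, ha, rfl⟩ ha1
      have h4 : cls a < 2 := (hA a ha).2.1.resolve_left (by rintro rfl; simp at ha1)
      have h5 : IsConj z (φ a) := IsConj.trans (by
        generalize cls a = k at h4
        interval_cases k
        exacts [h.map_z ▸ IsConj.refl _, h1 false]) (h.isConj_rep (by omega))
      obtain ⟨g, hg⟩ := isConj_iff.1 h5
      intro y hy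
      have : g⁻¹ * y * g⁻¹⁻¹ ∈ N ⊓ centralizer {z} := ⟨hN.conj_mem _ hy.1 _, mc.2 (by
        have := mc.1 hy.2
        rw [← hg] at this
        calc _ = g⁻¹ * (y * (g * z * g⁻¹)) * g := by group
          _ = _ := by rw [this]; group)⟩
      rw [inf_cent_eq_bot h ho, mem_bot, conj_eq_one_iff] at this
      exact this

universe u

theorem gen_top {G : Type u} [Group G] [Finite G] [IsSimpleGroup G]
    (hc : ∀ (K : Type u) [Group K] [Finite K] [IsSimpleGroup K] (z : K) (φ : M →* K), Emb z φ →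
      Nat.card K = 9999360 ∨ Nat.card K = 244823040 ∨ Nat.card K = 4030387200)
    {z : G} {φ : M →* G} (h : Emb z φ) {e1 f1 e4 f4 : Bool} {s1 s4 : G}
    (c : Cfg φ (mt1 e1) (mt4 e1 e4) (ma2 f1) (mb1 f4) s1 s4) : φ.range ⊔ Subgroup.closure {s1, s4} = ⊤ := by
  set K := φ.range ⊔ Subgroup.closure {s1, s4}
  have m : ∀ a, φ a ∈ K := fun a => mem_sup_left ⟨a, rfl⟩
  have m1 : s1 ∈ K := mem_sup_right (subset_closure (by simp))
  have m4 : s4 ∈ K := mem_sup_right (subset_closure (by simp))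
  have hK : Emb (⟨z, h.map_z ▸ m z0⟩ : K) (φ.codRestrict K m) :=
    ⟨fun a b e => h.inj (congrArg Subtype.val e), Subtype.ext h.map_z,
      fun g hg => (h.surj g (congrArg Subtype.val hg)).imp fun _ e => Subtype.ext e⟩
  obtain ⟨k1, k2, k3, k4⟩ := cfg_comm e1 f1 e4 f4
  have i1 := inv_eq_of_mul_eq_one_right c.sq1
  have i4 := inv_eq_of_mul_eq_one_right c.sq4
  have cc : ∀ s x y x' y' : G, s * x * s⁻¹ = x' → s * y * s⁻¹ = y' →
      s * (x * y * x⁻¹ * y⁻¹) * s⁻¹ = x' * y' * x'⁻¹ * y'⁻¹ := by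
    rintro s x y _ _ rfl rfl; group
  have j1 : s4 * φ (aa false) * s4⁻¹ = z := by
    rw [← h.map_z, ← k1, ← k2]
    simp only [map_mul, map_inv]
    exact cc _ _ _ _ _ (by rw [c.s4a', mul_inv_cancel_right]) (by rw [i4, c.s4b])
  have j2 : s1 * z * s1⁻¹ = φ (aa true) := by
    rw [← h.map_z, ← k2, ← k4]
    simp only [map_mul, map_inv]
    exact cc _ _ _ _ _ (by rw [i1, c.s1a]) (by rw [c.s1b', mul_inv_cancel_right])
  have j3 : s1 * φ (aa false) * s1⁻¹ = φ a3 := by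
    rw [← k1, ← k3]
    simp only [map_mul, map_inv]
    exact cc _ _ _ _ _ (by rw [i1, c.s1a]) (by rw [c.s1b, mul_inv_cancel_right])
  have l1 : IsConj (⟨z, h.map_z ▸ m z0⟩ : K) (φ.codRestrict K m (aa false)) :=
    (cj (c := ⟨s4, m4⟩) (Subtype.ext j1)).symm
  have := simple_of_fus hK (by
    rintro (_ | _)
    exacts [l1, cj (c := ⟨s1, m1⟩) (Subtype.ext j2)]) (l1.trans (cj (c := ⟨s1, m1⟩) (Subtype.ext j3)))
  have d := card_subgroup_dvd_card K
  refine (card_eq_iff_eq_top K).1 ?_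
  rcases hc K _ _ hK with e | e | e <;> rcases hc G _ _ h with e' | e' | e' <;> rw [e, e'] at d ⊢ <;>
    first | rfl | exact absurd d (by norm_num)

theorem emb_SL : Emb (toSL z0) toSL := ⟨toSL_inj, rfl, toSL_surj⟩

theorem simple_SL : IsSimpleGroup (Matrix.SpecialLinearGroup (Fin 5) (ZMod 2)) := by
  have k : ∀ (σ : Equiv.Perm (Fin 5)) (a : M), σ.permMatrix (ZMod 2) * mat z0 = mat a * σ.permMatrix (ZMod 2) →
      IsConj (toSL z0) (toSL a) := fun σ a e => cj (c := ⟨σ.permMatrix (ZMod 2), by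
        rw [Matrix.det_permutation]
        rcases Int.units_eq_one_or σ.sign with h | h <;> rw [h] <;> decide⟩)
      (mul_inv_eq_iff_eq_mul.2 (Subtype.ext e))
  exact simple_of_fus emb_SL (by
    rintro (_ | _)
    exacts [k (Equiv.swap 1 4) _ (by decide +kernel), k (Equiv.swap 0 2) _ (by decide +kernel)])
    (k (Equiv.swap 1 4 * Equiv.swap 0 2) _ (by decide +kernel))

theorem card_SL5 : Nat.card (Matrix.SpecialLinearGroup (Fin 5) (ZMod 2)) = 9999360 := by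
  have := PG.card_SL_mul 5 (ZMod 2)
  rw [Matrix.card_GL_field, Fin.prod_univ_five, Nat.card_zmod, ZMod.card] at this
  generalize Nat.card (Matrix.SpecialLinearGroup (Fin 5) (ZMod 2)) = n at this ⊢
  have h3 : ((3 : Fin 5) : ℕ) = 3 := rfl
  have h4 : ((4 : Fin 5) : ℕ) = 4 := rfl
  have h2 : ((2 : Fin 5) : ℕ) = 2 := rfl
  have h1 : ((1 : Fin 5) : ℕ) = 1 := rfl
  have h0 : ((0 : Fin 5) : ℕ) = 0 := rfl
  rw [h0, h1, h2, h3, h4] at this
  omega

end Cfsg.Agent.Lib.Held
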