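import Cfsg.Agent.Lib.Held.Rel
import Cfsg.Agent.Lib.Held.TS
import Cfsg.Agent.Lib.Held.TM
import Cfsg.Agent.Lib.Held.THOk

set_option autoImplicit false
set_option maxRecDepth 100000

/-! # Presentations of the three groups -/

namespace Cfsg.Agent.Lib.Held

open Cfsg.Agent.Lib.He TC Subgroup

/-- the graph symmetry on the letters -/
def sgm (y : ℕ) : ℕ := [3, 2, 1, 0, 7, 6, 5, 4, 9, 8, 13, 11, 12, 10].getD y y

/-- relator test for the type `(e₁, e₄)` -/
noncomputable def gd (e₁ e₄ : Bool) : ℕ → Bool :=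
  good (hm e₁ e₄) vec1 (act1 e₁ e₄) vec2 (act2 e₁ e₄)

/-- relator test for the type `(1, 0)` with the letters renamed -/
noncomputable def gds : ℕ → Bool :=
  good (fun y => hm true false (sgm y)) (fun y => vec1 (sgm y)) (fun y => act1 true false (sgm y))
    (fun y => vec2 (sgm y)) (fun y => act2 true false (sgm y))

/-- all words of the table pass the test -/
noncomputable def allR (P : ℕ → Bool) (R m : ℕ) : Bool :=
  Nat.blt R (Nat.pow 2 (Nat.mul 64 m)) && (List.range m).all fun r => P (rot R r)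

theorem gL : (allR (gd false false) TL_R TL_m && allR (gd false false) TN0_R TN0_m &&
    allR (gd false false) TT_R TT_m && allR (gd false false) TA_R TA_m) = true := by decide +kernel
theorem gM : (allR (gd false true) TM_R TM_m && allR (gd false true) TN1_R TN1_m &&
    allR (gd false true) TT_R TT_m && allR (gd false true) TA_R TA_m) = true := by decide +kernel
theorem gM' : (allR gds TM_R TM_m && allR gds TN1_R TN1_m &&
    allR gds TT_R TT_m && allR gds TA_R TA_m) = true := by decide +kernel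
theorem gH : (allR (gd true true) TH_R TH_m && allR (gd true true) TN1_R TN1_m &&
    allR (gd true true) TT_R TT_m && allR (gd true true) TA_R TA_m) = true := by decide +kernel

variable {Γ : Type*} [Group Γ]

/-- the relators of four tables hold -/
def Pr (γ : ℕ → Γ) (R R' : ℕ) : Prop := (∀ r, ev γ (rot R r) = 1) ∧ (∀ r, ev γ (rot R' r) = 1) ∧
  (∀ r, ev γ (rot TT_R r) = 1) ∧ ∀ r, ev γ (rot TA_R r) = 1

theorem Pr.of_all {γ : ℕ → Γ} {P : ℕ → Bool} (hP : ∀ W, P W = true → ev γ W = 1) {R R' m m' : ℕ}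
    (h : (allR P R m && allR P R' m' && allR P TT_R TT_m && allR P TA_R TA_m) = true) :
    Pr γ R R' := by
  have k : ∀ {R m : ℕ}, allR P R m = true → ∀ r, ev γ (rot R r) = 1 := fun h => by
    simp only [allR, Bool.and_eq_true, Nat.blt_eq] at h
    exact rot_all h.1 h.2 hP
  simp only [Bool.and_eq_true] at h
  exact ⟨k h.1.1.1, k h.1.1.2, k h.1.2, k h.2⟩

theorem ev_prod {Γ' : Type*} [Group Γ'] (γ : ℕ → Γ) (γ' : ℕ → Γ') (W : ℕ) :
    ev (fun k => (γ k, γ' k)) W = (ev γ W, ev γ' W) := by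
  induction W using Nat.strong_induction_on with
  | _ W ih =>
    by_cases h : W ≤ 1
    · simp only [ev_le _ h]; rfl
    · simp only [ev_gt _ h, ih (W / 16) (by omega)]; rfl

theorem Pr.prod {Γ' : Type*} [Group Γ'] {γ : ℕ → Γ} {γ' : ℕ → Γ'} {R R' : ℕ} (h : Pr γ R R')
    (h' : Pr γ' R R') : Pr (fun k => (γ k, γ' k)) R R' := by
  refine ⟨fun r => ?_, fun r => ?_, fun r => ?_, fun r => ?_⟩ <;> rw [ev_prod]
  exacts [Prod.ext (h.1 r) (h'.1 r), Prod.ext (h.2.1 r) (h'.2.1 r), Prod.ext (h.2.2.1 r) (h'.2.2.1 r),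
    Prod.ext (h.2.2.2 r) (h'.2.2.2 r)]

theorem Pr.card [Finite Γ] {γ : ℕ → Γ} {R R' n n' : ℕ} {t t' : Tr} (h : Pr γ R R')
    (o : Ok t R 16383 16319 n n) (o' : Ok t' R' 16319 16143 n' n') (h0 : 0 < n) (h0' : 0 < n') :
    Nat.card (closure (γ '' {k | bt 16383 k = true})) ≤ n * (n' * 1024) := by
  have k : ∀ m y, bt m y = true → γ y ∈ closure (γ '' {k | bt m k = true}) :=
    fun m y hy => subset_closure ⟨y, hy, rfl⟩
  have h1 := TA_ok.card (K := ⊥) (by omega) h.2.2.2 (fun y hy => by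
    have : Nat.shiftRight 0 y = 0 := Nat.zero_shiftRight y
    rw [bt, this] at hy
    exact absurd hy (by decide)) (by omega)
  have h2 := TT_ok.card (by omega) h.2.2.1 (k _) (by omega)
  have h3 := o'.card (by omega) h.2.1 (k _) h0'
  have h4 := o.card (by omega) h.1 (k _) h0
  rw [card_bot] at h1
  exact h4.trans (Nat.mul_le_mul_left _ (h3.trans (Nat.mul_le_mul_left _ (by omega))))

theorem bij_of_map {G K : Type*} [Group G] [Group K] [Finite G] {D : Subgroup G} (f : G →* K)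
    (hf : D.map f = ⊤) (hM : Nat.card D ≤ Nat.card K) : Function.Bijective (f.comp D.subtype) := by
  have : Function.Surjective (f.comp D.subtype) := fun m => by
    obtain ⟨y, hy, e⟩ := hf.ge (mem_top m)
    exact ⟨⟨y, hy⟩, e⟩
  exact this.bijective_of_nat_card_le hM

theorem Pr.iso {Γ' : Type*} [Group Γ'] [Finite Γ] [Finite Γ'] {γ : ℕ → Γ} {γ' : ℕ → Γ'}
    {R R' n n' : ℕ} {t t' : Tr} (h : Pr γ R R') (h' : Pr γ' R R')
    (o : Ok t R 16383 16319 n n) (o' : Ok t' R' 16319 16143 n' n') (h0 : 0 < n) (h0' : 0 < n')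
    (g : closure (γ '' {k | bt 16383 k = true}) = ⊤) (g' : closure (γ' '' {k | bt 16383 k = true}) = ⊤)
    (c : Nat.card Γ = n * (n' * 1024)) (c' : Nat.card Γ' = n * (n' * 1024)) : Nonempty (Γ ≃* Γ') := by
  have h4 := (h.prod h').card o o' h0 h0'
  refine ⟨(MulEquiv.ofBijective _ (bij_of_map (MonoidHom.fst Γ Γ') ?_ (c ▸ h4))).symm.trans
    (MulEquiv.ofBijective _ (bij_of_map (MonoidHom.snd Γ Γ') ?_ (c' ▸ h4)))⟩
  · rw [MonoidHom.map_closure, Set.image_image, ← g]; rfl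
  · rw [MonoidHom.map_closure, Set.image_image, ← g']; rfl

theorem ev_mem {γ : ℕ → Γ} {K : Subgroup Γ} (h : ∀ k < 16, γ k ∈ K) (W : ℕ) : ev γ W ∈ K := by
  induction W using Nat.strong_induction_on with
  | _ W ih =>
    by_cases h1 : W ≤ 1
    · rw [ev_le _ h1]; exact K.one_mem
    · rw [ev_gt _ h1]
      exact K.mul_mem (h _ (Nat.mod_lt _ (by omega))) (ih _ (by omega))

theorem bt_all {k : ℕ} : bt 16383 k = true ↔ k < 14 :=
  ⟨bt_lt (by omega), fun h => by interval_cases k <;> decide⟩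

variable {G : Type*} [Group G] {φ : M →* G}

theorem gam_top {e₁ e₄ : Bool} {s₁ s₄ : G} (h : φ.range ⊔ closure {s₁, s₄} = ⊤) :
    closure (gam φ e₁ e₄ s₁ s₄ '' {k | bt 16383 k = true}) = ⊤ := by
  have k : ∀ y < 16, gam φ e₁ e₄ s₁ s₄ y ∈ closure (gam φ e₁ e₄ s₁ s₄ '' {k | bt 16383 k = true}) := by
    intro y hy
    rcases lt_or_ge y 14 with h1 | h1
    · exact subset_closure ⟨y, bt_all.2 h1, rfl⟩
    · rw [gam_hd _ _ _ _ y (by omega) (by omega), hm, List.getD_eq_default _ _ h1, map_one]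
      exact one_mem _
  rw [eq_top_iff, ← h]
  refine sup_le ?_ ((closure_le _).2 ?_)
  · rintro _ ⟨a, rfl⟩
    rw [← ee_pp a, map_mul, ← valH_spec (gam_hd e₁ e₄ s₁ s₄) (gen_pp e₁ e₄ a.p),
      ← valH_spec (gam_hd e₁ e₄ s₁ s₄) (gen_ee e₁ e₄ a.e)]
    exact mul_mem (ev_mem k _) (ev_mem k _)
  · rintro _ (rfl | rfl)
    · exact k 4 (by omega)
    · exact k 7 (by omega)

theorem sg_top {γ : ℕ → G} (h : closure (γ '' {k | bt 16383 k = true}) = ⊤) :
    closure ((fun y => γ (sgm y)) '' {k | bt 16383 k = true}) = ⊤ := by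
  rw [eq_top_iff, ← h]
  refine closure_mono ?_
  rintro _ ⟨y, hy, rfl⟩
  have : ∀ y < 14, sgm y < 14 ∧ sgm (sgm y) = y := by decide
  exact ⟨sgm y, bt_all.2 (this y (bt_all.1 hy)).1, congrArg γ (this y (bt_all.1 hy)).2⟩

/-- generators satisfying one of the three presentations -/
theorem Cfg.pres {z : G} (h : Emb z φ) {e₁ e₄ : Bool} {s₁ s₄ : G}
    (c : Cfg φ (mt1 e₁) (mt4 e₁ e₄) (ma2 e₁) (mb1 e₄) s₁ s₄) (ht : φ.range ⊔ closure {s₁, s₄} = ⊤) :
    ∃ γ : ℕ → G, closure (γ '' {k | bt 16383 k = true}) = ⊤ ∧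
      if e₁ = e₄ then (if e₁ then Pr γ TH_R TN1_R else Pr γ TL_R TN0_R) else Pr γ TM_R TN1_R := by
  have k := good_spec (gam_hd e₁ e₄ s₁ s₄) (c.sd1 h) (c.sd2 h)
  cases e₁ <;> cases e₄
  · exact ⟨_, gam_top ht, Pr.of_all k gL⟩
  · exact ⟨_, gam_top ht, Pr.of_all k gM⟩
  · refine ⟨_, sg_top (gam_top ht), Pr.of_all (good_spec (φ := φ) (fun y h1 h2 => ?_)
      ((c.sd1 h).comp sgm) ((c.sd2 h).comp sgm)) gM'⟩
    have : sgm y ≠ 4 ∧ sgm y ≠ 7 := by
      rcases lt_or_ge y 14 with h3 | h3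
      · revert h1 h2; interval_cases y <;> decide
      · rw [sgm, List.getD_eq_default _ _ h3]; omega
    exact gam_hd _ _ _ _ _ this.1 this.2
  · exact ⟨_, gam_top ht, Pr.of_all k gH⟩

/-- the order attached to a type -/
def ord (e₁ e₄ : Bool) : ℕ :=
  if e₁ then (if e₄ then 4030387200 else 244823040) else (if e₄ then 244823040 else 9999360)

theorem Cfg.iso {G' : Type*} [Group G'] [Finite G] [Finite G'] {φ' : M →* G'} {z : G} {z' : G'}
    (h : Emb z φ) (h' : Emb z' φ') {e₁ e₄ e₁' e₄' : Bool} {s₁ s₄ : G} {s₁' s₄' : G'}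
    (c : Cfg φ (mt1 e₁) (mt4 e₁ e₄) (ma2 e₁) (mb1 e₄) s₁ s₄)
    (c' : Cfg φ' (mt1 e₁') (mt4 e₁' e₄') (ma2 e₁') (mb1 e₄') s₁' s₄')
    (ht : φ.range ⊔ closure {s₁, s₄} = ⊤) (ht' : φ'.range ⊔ closure {s₁', s₄'} = ⊤)
    (hc : Nat.card G = ord e₁ e₄) (hc' : Nat.card G' = ord e₁' e₄') (e : Nat.card G = Nat.card G') :
    Nonempty (G ≃* G') := by
  obtain ⟨γ, g, p⟩ := c.pres h ht
  obtain ⟨γ', g', p'⟩ := c'.pres h' ht'
  rw [hc, hc'] at e
  cases e₁ <;> cases e₄ <;> cases e₁' <;> cases e₄' <;>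
    first
    | exact absurd e (by decide)
    | exact Pr.iso p p' TL_ok TN0_ok (by omega) (by omega) g g' hc hc'
    | exact Pr.iso p p' TM_ok TN1_ok (by omega) (by omega) g g' hc hc'
    | exact Pr.iso p p' TH_ok TN1_ok (by omega) (by omega) g g' hc hc'

end Cfsg.Agent.Lib.Held
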