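import Cfsg.Agent.Lib.Held.Iso
import Cfsg.Agent.Lib.Held.Gen
import Cfsg.Agent.Lib.Held.Ex
import Cfsg.Agent.Lib.He.Fus

set_option autoImplicit false

/-! # Held's theorem: uniqueness, given the normal form and the order formula -/

namespace Cfsg.Agent.Lib.Held

open Cfsg.Agent.Lib.He Subgroup

universe u v

/-- the order formula -/
def HOrd : Prop := ∀ (K : Type u) [Group K] [Finite K] (z : K) (φ : M →* K) (ε : Bool → Bool),
  Pat z φ ε → Nat.card K = ord (ε false) (ε true)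

theorem HOrd.tri (hc : HOrd.{u}) (K : Type u) [Group K] [Finite K] [IsSimpleGroup K] (z : K)
    (φ : M →* K) (h : Emb z φ) :
    Nat.card K = 9999360 ∨ Nat.card K = 244823040 ∨ Nat.card K = 4030387200 := by
  obtain ⟨ε, p⟩ := h.exists_pat
  rw [hc K z φ ε p]
  cases ε false <;> cases ε true <;> simp [ord]

theorem iso_of_card {G : Type u} {G' : Type v} [Group G] [Group G'] [Finite G] [Finite G']
    [IsSimpleGroup G] [IsSimpleGroup G'] (hc : HOrd.{u}) (hc' : HOrd.{v})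
    {z : G} {z' : G'} {φ : M →* G} {φ' : M →* G'} (h : Emb z φ) (h' : Emb z' φ')
    (e : Nat.card G = Nat.card G') : Nonempty (G ≃* G') := by
  obtain ⟨ε, p⟩ := h.exists_pat
  obtain ⟨ε', p'⟩ := h'.exists_pat
  obtain ⟨e₁, f₁, e₄, f₄, s₁, s₄, c⟩ := exists_cfg p
  obtain ⟨e₁', f₁', e₄', f₄', s₁', s₄', c'⟩ := exists_cfg p'
  obtain ⟨⟨rfl, rfl⟩, rfl, rfl⟩ := c.type p
  obtain ⟨⟨rfl, rfl⟩, rfl, rfl⟩ := c'.type p'
  exact c.iso h h' c' (gen_top hc.tri h c) (gen_top hc'.tri h' c') (hc G z φ ε p) (hc' G' z' φ' ε' p') e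

theorem trichotomy {G : Type u} [Group G] [Finite G] [IsSimpleGroup G] (hc : HOrd.{u})
    (hc' : HOrd.{0})
    {z : G} {φ : M →* G} (h : Emb z φ) :
    Nonempty (G ≃* Matrix.SpecialLinearGroup (Fin 5) (ZMod 2)) ∨ Nat.card G = 244823040 ∨
      Nat.card G = 4030387200 := by
  refine (hc.tri G z φ h).imp_left fun e => ?_
  haveI := simple_SL
  exact iso_of_card hc hc' h emb_SL (e.trans card_SL5.symm)

end Cfsg.Agent.Lib.Held
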