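import Cfsg.Agent.Lib.Held.Tab

set_option autoImplicit false
set_option maxRecDepth 100000
set_option synthInstance.maxSize 2000

/-! # The relators of the amalgam hold in `G` -/

namespace Cfsg.Agent.Lib.Held

open Cfsg.Agent.Lib.He TC

variable {G : Type*} [Group G] {φ : M →* G}

theorem conj_sq {s : G} {a b a' b' : M} (ha : s * φ a * s⁻¹ = φ a') (hb : s * φ b * s⁻¹ = φ b') :
    s * φ ((a * b) ^ 2) * s⁻¹ = φ ((a' * b') ^ 2) := by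
  simp only [map_pow, map_mul, ← ha, ← hb, pow_two]
  group

theorem conj_of_comm {s g : G} (h : s * g = g * s) : s * g * s⁻¹ = g := by
  rw [h, mul_inv_cancel_right]

theorem conj_swap {s g k : G} (h1 : s * s = 1) (h : s * g * s⁻¹ = k) : s * k * s⁻¹ = g := by
  have h2 : s⁻¹ = s := inv_eq_of_mul_eq_one_right h1
  rw [← h, h2]
  calc _ = (s * s) * g * (s * s) := by group
    _ = g := by rw [h1, one_mul, mul_one]

namespace Cfg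
variable {e₁ f₁ e₄ f₄ : Bool} {s₁ s₄ : G}
  (c : Cfg φ (mt1 e₁) (mt4 e₁ e₄) (ma2 f₁) (mb1 f₄) s₁ s₄)
include c

theorem i1 : s₁⁻¹ = s₁ := inv_eq_of_mul_eq_one_right c.sq1
theorem i4 : s₄⁻¹ = s₄ := inv_eq_of_mul_eq_one_right c.sq4
theorem a11 : s₁ * φ (ma1 e₁) * s₁⁻¹ = φ (ma2 f₁) := by rw [c.i1, ← ma1_eq e₁ f₁, c.s1a]
theorem a12 : s₁ * φ (ma2 f₁) * s₁⁻¹ = φ (ma1 e₁) := conj_swap c.sq1 c.a11
theorem b11 : s₁ * φ (mb1 f₄) * s₁⁻¹ = φ (mb1 f₄) := conj_of_comm c.s1b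
theorem b12 : s₁ * φ (mb2 e₄) * s₁⁻¹ = φ (mb2 e₄) := conj_of_comm (mb2_eq e₁ e₄ f₄ ▸ c.s1b')
theorem a41 : s₄ * φ (ma1 e₁) * s₄⁻¹ = φ (ma1 e₁) := conj_of_comm (ma1_eq e₁ f₁ ▸ c.s4a')
theorem a42 : s₄ * φ (ma2 f₁) * s₄⁻¹ = φ (ma2 f₁) := conj_of_comm c.s4a
theorem b41 : s₄ * φ (mb1 f₄) * s₄⁻¹ = φ (mb2 e₄) := by rw [c.i4, ← mb2_eq e₁ e₄ f₄, c.s4b]
theorem b42 : s₄ * φ (mb2 e₄) * s₄⁻¹ = φ (mb1 f₄) := conj_swap c.sq4 c.b41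

theorem cs1 : s₁ * φ c11 * s₁⁻¹ = φ c21 ∧ s₁ * φ c12 * s₁⁻¹ = φ c22 ∧
    s₁ * φ c21 * s₁⁻¹ = φ c11 ∧ s₁ * φ c22 * s₁⁻¹ = φ c12 := by
  obtain ⟨h1, h2, h3, h4⟩ := c_eq e₁ f₁ e₄ f₄
  have k1 := conj_sq c.a11 c.b11
  have k2 := conj_sq c.a11 c.b12
  rw [h1, h3] at k1
  rw [h2, h4] at k2
  exact ⟨k1, k2, conj_swap c.sq1 k1, conj_swap c.sq1 k2⟩

theorem cs4 : s₄ * φ c11 * s₄⁻¹ = φ c12 ∧ s₄ * φ c12 * s₄⁻¹ = φ c11 ∧
    s₄ * φ c21 * s₄⁻¹ = φ c22 ∧ s₄ * φ c22 * s₄⁻¹ = φ c21 := by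
  obtain ⟨h1, h2, h3, h4⟩ := c_eq e₁ f₁ e₄ f₄
  have k1 := conj_sq c.a41 c.b41
  have k2 := conj_sq c.a42 c.b41
  rw [h1, h2] at k1
  rw [h3, h4] at k2
  exact ⟨k1, conj_swap c.sq4 k1, k2, conj_swap c.sq4 k2⟩

theorem al11 (v : ℕ) : s₁ * φ (al1 e₁ f₁ v) * s₁⁻¹ = φ (pr (ma2 f₁) (ma1 e₁) c21 c22 c11 c12 v) :=
  conj_pr φ c.a11 c.a12 c.cs1.1 c.cs1.2.1 c.cs1.2.2.1 c.cs1.2.2.2 v
theorem al41 (v : ℕ) : s₄ * φ (al1 e₁ f₁ v) * s₄⁻¹ = φ (pr (ma1 e₁) (ma2 f₁) c12 c11 c22 c21 v) :=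
  conj_pr φ c.a41 c.a42 c.cs4.1 c.cs4.2.1 c.cs4.2.2.1 c.cs4.2.2.2 v
theorem al12 (v : ℕ) : s₁ * φ (al2 e₄ f₄ v) * s₁⁻¹ = φ (pr (mb1 f₄) (mb2 e₄) c21 c22 c11 c12 v) :=
  conj_pr φ c.b11 c.b12 c.cs1.1 c.cs1.2.1 c.cs1.2.2.1 c.cs1.2.2.2 v
theorem al42 (v : ℕ) : s₄ * φ (al2 e₄ f₄ v) * s₄⁻¹ = φ (pr (mb2 e₄) (mb1 f₄) c12 c11 c22 c21 v) :=
  conj_pr φ c.b41 c.b42 c.cs4.1 c.cs4.2.1 c.cs4.2.2.1 c.cs4.2.2.2 v

theorem type {z : G} {ε : Bool → Bool} (h : Pat z φ ε) :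
    (e₁ = ε false ∧ f₁ = ε false) ∧ e₄ = ε true ∧ f₄ = ε true := by
  constructor
  · refine (type1 ε e₁ f₁).resolve_right fun ⟨v, h1, h2⟩ => ?_
    have := (h.dz_iff _).1 (((h.dz_iff _).2 h1).trans (cj (c.al41 v)))
    rw [h2] at this
    exact absurd this (by simp)
  · refine (type2 ε e₄ f₄).resolve_right fun ⟨v, h1, h2⟩ => ?_
    have := (h.dz_iff _).1 (((h.dz_iff _).2 h1).trans (cj (c.al12 v)))
    rw [h2] at this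
    exact absurd this (by simp)

end Cfg

/-- the fourteen generators -/
def gam (φ : M →* G) (e₁ e₄ : Bool) (s₁ s₄ : G) (y : ℕ) : G :=
  if y = 4 then s₁ else if y = 7 then s₄ else φ (hm e₁ e₄ y)

theorem gam_hd (e₁ e₄ : Bool) (s₁ s₄ : G) : Hd (gam φ e₁ e₄ s₁ s₄) φ (hm e₁ e₄) :=
  fun y h1 h2 => by simp [gam, h1, h2]

theorem vec1_cases {y : ℕ} (h : vec1 y ≤ 64) :
    y = 4 ∨ y = 7 ∨ y ∈ [0, 1, 2, 3, 6, 8, 9, 10, 11, 12, 13] := by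
  rcases lt_or_ge y 14 with h1 | h1
  · revert h; interval_cases y <;> decide
  · rw [vec1, List.getD_eq_default _ _ h1] at h; omega

theorem vec2_cases {y : ℕ} (h : vec2 y ≤ 64) :
    y = 4 ∨ y = 7 ∨ y ∈ [0, 1, 2, 3, 5, 8, 9, 10, 11, 12, 13] := by
  rcases lt_or_ge y 14 with h1 | h1
  · revert h; interval_cases y <;> decide
  · rw [vec2, List.getD_eq_default _ _ h1] at h; omega

/-- commuting with a basis is commuting with everything -/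
theorem comm_pr {g : G} {a b c d e f : M}
    (h : ∀ u ∈ [1, 2, 4, 8, 16, 32], g * φ (pr a b c d e f u) * g⁻¹ = φ (pr a b c d e f u)) (v : ℕ) :
    g * φ (pr a b c d e f v) * g⁻¹ = φ (pr a b c d e f v) := by
  simp only [List.mem_cons, List.not_mem_nil, or_false, forall_eq_or_imp, forall_eq] at h
  obtain ⟨h1, h2, h3, h4, h5, h6⟩ := h
  have e1 : pr a b c d e f 1 = a := show a * 1 * 1 * 1 * 1 * 1 = a by simp
  have e2 : pr a b c d e f 2 = b := show 1 * b * 1 * 1 * 1 * 1 = b by simp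
  have e3 : pr a b c d e f 4 = c := show 1 * 1 * c * 1 * 1 * 1 = c by simp
  have e4 : pr a b c d e f 8 = d := show 1 * 1 * 1 * d * 1 * 1 = d by simp
  have e5 : pr a b c d e f 16 = e := show 1 * 1 * 1 * 1 * e * 1 = e by simp
  have e6 : pr a b c d e f 32 = f := show 1 * 1 * 1 * 1 * 1 * f = f by simp
  rw [e1] at h1; rw [e2] at h2; rw [e3] at h3; rw [e4] at h4; rw [e5] at h5; rw [e6] at h6
  exact conj_pr φ h1 h2 h3 h4 h5 h6 v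

variable {z : G} (h : Emb z φ)
include h

theorem cen_of (i : Bool) {α : ℕ → M} (hs : ∀ m ∈ UL i, ∃ v : Fin 64, α v = m) {g : G}
    (hg : ∀ v, g * φ (α v) * g⁻¹ = φ (α v)) : ∃ m ∈ UL i, φ m = g := by
  have k : ∀ m ∈ UL i, g * φ m = φ m * g := fun m hm => by
    obtain ⟨v, rfl⟩ := hs m hm
    exact mul_inv_eq_iff_eq_mul.1 (hg v)
  obtain ⟨m, rfl⟩ := h.surj g (h.map_z ▸ k z0 ((by decide +kernel : ∀ i, z0 ∈ UL i) i))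
  refine ⟨m, (inU_iff _ _).1 ?_, rfl⟩
  have k' : ∀ a ∈ UL i, m * a = a * m := fun a ha => h.comm_iff.1 (k a ha)
  cases i
  · exact cen1 m (k' _ (by decide +kernel)) (k' _ (by decide +kernel)) (k' _ (by decide +kernel))
      (k' _ (by decide +kernel)) (k' _ (by decide +kernel))
  · exact cen2 m (k' _ (by decide +kernel)) (k' _ (by decide +kernel)) (k' _ (by decide +kernel))
      (k' _ (by decide +kernel)) (k' _ (by decide +kernel))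

omit h in
theorem eq_one_of_pm {r a a' : G} (hr : r ^ 3 = 1) (h1 : a ∈ pmC r) (h2 : r * a * r⁻¹ = a')
    (h3 : a * a = 1) (h4 : a' * a' = 1) (h5 : a * a' = a' * a) : a' = a := by
  have i1 : a⁻¹ = a := inv_eq_of_mul_eq_one_right h3
  rcases h1 with h1 | h1
  · rw [← h2, ← mul_inv_eq_iff_eq_mul.1 h1]; group
  · have e : a * a' = r := by
      rw [← h2]
      calc _ = a * r * a⁻¹ * r⁻¹ := by rw [i1]; group
        _ = r * (r ^ 3)⁻¹ := by rw [h1]; group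
        _ = r := by rw [hr]; group
    have e2 : r * r = 1 := by
      rw [← e]
      calc _ = a * (a' * a) * a' := by group
        _ = (a * a) * (a' * a') := by rw [← h5]; group
        _ = 1 := by rw [h3, h4, one_mul]
    have e3 : r = 1 := by rwa [pow_succ, pow_two, e2, one_mul] at hr
    rw [← h2, e3]; group

variable {e₁ e₄ : Bool} {s₁ s₄ : G} (c : Cfg φ (mt1 e₁) (mt4 e₁ e₄) (ma2 e₁) (mb1 e₄) s₁ s₄)
include c

omit h in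
theorem Cfg.ad1 : Ad (gam φ e₁ e₄ s₁ s₄) (fun v => φ (al1 e₁ e₁ v)) vec1 (act1 e₁ e₄) := by
  intro y hy u hu
  rcases vec1_cases hy with rfl | rfl | h1
  · exact (c.al11 u).trans (congrArg φ (act1_s e₁ e₄ ⟨u, hu⟩).1)
  · exact (c.al41 u).trans (congrArg φ (act1_s e₁ e₄ ⟨u, hu⟩).2)
  · rw [gam_hd _ _ _ _ y (by rintro rfl; revert h1; decide) (by rintro rfl; revert h1; decide),
      ← map_inv, ← map_mul, ← map_mul]
    exact congrArg φ (act1_H e₁ e₄ y h1 ⟨u, hu⟩)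

omit h in
theorem Cfg.ad2 : Ad (gam φ e₁ e₄ s₁ s₄) (fun v => φ (al2 e₄ e₄ v)) vec2 (act2 e₁ e₄) := by
  intro y hy u hu
  rcases vec2_cases hy with rfl | rfl | h1
  · exact (c.al12 u).trans (congrArg φ (act2_s e₁ e₄ ⟨u, hu⟩).1)
  · exact (c.al42 u).trans (congrArg φ (act2_s e₁ e₄ ⟨u, hu⟩).2)
  · rw [gam_hd _ _ _ _ y (by rintro rfl; revert h1; decide) (by rintro rfl; revert h1; decide),
      ← map_inv, ← map_mul, ← map_mul]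
    exact congrArg φ (act2_H e₁ e₄ y h1 ⟨u, hu⟩)

omit h c in
theorem ev6 (γ : ℕ → G) (a b c : ℕ) (ha : a < 16) (hb : b < 16) (hc : c < 16) :
    ev γ (a + 16 * (b + 16 * (c + 16 * (a + 16 * (c + 16 * (b + 16 * 1)))))) =
      γ a * (γ b * (γ c * (γ a * (γ c * γ b)))) := by
  have k : ∀ x W, x < 16 → 1 ≤ W → ev γ (x + 16 * W) = γ x * ev γ W := fun x W h1 h2 => by
    rw [ev_gt γ (by omega), show (x + 16 * W) % 16 = x by omega, show (x + 16 * W) / 16 = W by omega]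
  rw [k _ _ ha (by omega), k _ _ hb (by omega), k _ _ hc (by omega), k _ _ ha (by omega),
    k _ _ hc (by omega), k _ _ hb (by omega), ev_le γ le_rfl, mul_one]

omit h c in
/-- the new generator centralises `r = s t` -/
theorem mem_pmC_new (h : Emb z φ) {s : G} {t n b p q m : M} (hs : s * s = 1) (ht : t * t = 1)
    (hn : n * n = 1)
    (hm : φ m = φ n * (s * (φ t * (φ n * (φ t * s))))) (m2 : m * m = 1)
    (h1 : n * p * n⁻¹ = q) (h2 : n * q * n⁻¹ = p) (sp : s * φ p = φ p * s) (sq : s * φ q = φ q * s)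
    (tp : t * p = p * t) (tq : t * q = q * t) (sb : s * φ b = φ b * s) (tb : t * b = b * t)
    (nb : (n * b) ^ 3 = 1)
    (hc : p * m = m * p → q * m = m * q → n * m = m * n ∧ b * m = m * b) :
    φ n ∈ pmC (s * φ t) := by
  have i1 : s⁻¹ = s := inv_eq_of_mul_eq_one_right hs
  have i2 : (φ t)⁻¹ = φ t := inv_eq_of_mul_eq_one_right (by rw [← map_mul, ht, map_one])
  have i3 : (φ n)⁻¹ = φ n := inv_eq_of_mul_eq_one_right (by rw [← map_mul, hn, map_one])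
  have e : φ n * (s * φ t) * (φ n)⁻¹ = φ m * (s * φ t) := by
    rw [hm, i3]
    calc _ = φ n * (s * (φ t * φ n)) * ((s * φ t)⁻¹ * (s * φ t)) := by group
      _ = _ := by rw [mul_inv_rev, i1, i2]; group
  have cr : ∀ x : M, s * φ x = φ x * s → t * x = x * t → φ x * (s * φ t) * (φ x)⁻¹ = s * φ t := by
    intro x k1 k2
    rw [← mul_assoc, ← k1, mul_assoc s, ← map_mul, ← k2, map_mul]; group
  have cm : ∀ x y : M, n * x * n⁻¹ = y → φ x * (s * φ t) * (φ x)⁻¹ = s * φ t →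
      φ y * (s * φ t) * (φ y)⁻¹ = s * φ t → y * m = m * y := by
    intro x y k1 k2 k3
    refine h.comm_iff.1 ?_
    have k4 : φ y * (φ m * (s * φ t)) * (φ y)⁻¹ = φ m * (s * φ t) := by
      rw [← e, ← k1, map_mul, map_mul, map_inv]
      conv_rhs => rw [← k2]
      group
    have k5 : φ y * φ m * (φ y)⁻¹ * (φ y * (s * φ t) * (φ y)⁻¹) = φ m * (s * φ t) := by
      rw [← k4]; group
    rw [k3] at k5
    exact mul_inv_eq_iff_eq_mul.1 (mul_right_cancel k5)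
  obtain ⟨k1, k2⟩ := hc (cm q p h2 (cr q sq tq) (cr p sp tp)) (cm p q h1 (cr p sp tp) (cr q sq tq))
  have := eq_one_of_braid e (cr b sb tb) (h.comm_iff.2 k1) (h.comm_iff.2 k2)
    (by rw [← map_mul, ← map_pow, nb, map_one]) (by rw [← map_mul, m2, map_one])
  exact .inl (by rw [e, this, one_mul])

theorem Cfg.sd1 : Sd (gam φ e₁ e₄ s₁ s₄) vec1 (act1 e₁ e₄) := by
  have t2 : φ (mt1 e₁) * φ (mt1 e₁) = 1 := by
    rw [← map_mul, (by decide +kernel : ∀ e, mt1 e * mt1 e = 1), map_one]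
  have cm : ∀ x : M, mt1 e₁ * x = x * mt1 e₁ → φ (mt1 e₁) * φ x = φ x * φ (mt1 e₁) :=
    fun x hx => h.comm_iff.2 hx
  refine ⟨_, pmC (s₁ * φ (mt1 e₁)), c.ad1, fun u hu v hv => ?_, fun y hy => ?_, fun y hy => ?_,
    fun g hg h1 => ?_⟩
  · rw [← map_mul]; exact congrArg φ (xor1 e₁ ⟨u, hu⟩ ⟨v, hv⟩)
  · rcases vec1_cases hy.le with rfl | rfl | h1
    · exact absurd hy (by decide)
    · exact absurd hy (by decide)
    · rw [gam_hd _ _ _ _ y (by rintro rfl; revert h1; decide) (by rintro rfl; revert h1; decide)]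
      exact congrArg φ ((by decide +kernel : ∀ e₁ e₄, ∀ y ∈ [0, 1, 2, 3, 6, 8, 9, 10, 11, 12, 13],
        vec1 y < 64 → hm e₁ e₄ y = al1 e₁ e₁ (vec1 y)) e₁ e₄ y h1 hy)
  · have : y = 0 ∨ y = 2 ∨ y = 3 ∨ y = 4 ∨ y = 6 ∨ y = 7 ∨ y = 9 := by
      rcases vec1_cases hy.le with rfl | rfl | h1
      · simp
      · simp
      · revert hy; revert y; decide
    have k0 : ∀ e₁ e₄, mt1 e₁ * mb1 e₄ = mb1 e₄ * mt1 e₁ ∧ mt1 e₁ * mt4 e₁ e₄ = mt4 e₁ e₄ * mt1 e₁ ∧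
        mt1 e₁ * mb2 e₄ = mb2 e₄ * mt1 e₁ := by decide +kernel
    have k9 : s₁ * φ (mb2 e₄) = φ (mb2 e₄) * s₁ := mb2_eq e₁ e₄ e₄ ▸ c.s1b'
    rcases this with rfl | rfl | rfl | rfl | rfl | rfl | rfl
    · exact mem_pmC_right c.sq1 t2
    · exact mem_pmC_of_comm c.s1b (cm _ (k0 e₁ e₄).1)
    · exact mem_pmC_of_comm c.c1t (cm _ (k0 e₁ e₄).2.1)
    · exact mem_pmC_left c.sq1 t2
    · obtain ⟨m, m1, m2⟩ := cen_of h false (surj1 e₁) (comm_pr (trivA_spec c.ad1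
        ((by decide +kernel : ∀ e₁ e₄, trivA vec1 (act1 e₁ e₄)
          (6 + 16 * (4 + 16 * (0 + 16 * (6 + 16 * (0 + 16 * (4 + 16 * 1)))))) = true) e₁ e₄)))
      rw [ev6 _ _ _ _ (by omega) (by omega) (by omega)] at m2
      have k : ∀ e₁ e₄, mt1 e₁ * mt1 e₁ = 1 ∧ ms3 e₁ e₄ * ms3 e₁ e₄ = 1 ∧
          ms3 e₁ e₄ * mb2 e₄ * (ms3 e₁ e₄)⁻¹ = mt4 e₁ e₄ ∧
          ms3 e₁ e₄ * mt4 e₁ e₄ * (ms3 e₁ e₄)⁻¹ = mb2 e₄ ∧ mt1 e₁ * mb2 e₄ = mb2 e₄ * mt1 e₁ ∧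
          mt1 e₁ * mt4 e₁ e₄ = mt4 e₁ e₄ * mt1 e₁ ∧ mt1 e₁ * mb1 e₄ = mb1 e₄ * mt1 e₁ ∧
          (ms3 e₁ e₄ * mb1 e₄) ^ 3 = 1 := by decide +kernel
      obtain ⟨k1, k2, k3, k4, k5, k6, k7, k8⟩ := k e₁ e₄
      exact mem_pmC_new h c.sq1 k1 k2 m2 (UL_mul _ _ m1).1 k3 k4 k9 c.c1t
        k5 k6 c.s1b k7 k8 (cent1 e₁ e₄ m m1)
    · exact mem_pmC_of_comm c.c14 c.c4t.symm
    · exact mem_pmC_of_comm k9 (cm _ (k0 e₁ e₄).2.2)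
  · obtain ⟨m, m1, rfl⟩ := cen_of h false (surj1 e₁) (comm_pr h1)
    obtain ⟨v, rfl⟩ := surj1 e₁ m m1
    have k : ∀ e₁ e₄, ∀ v : Fin 64, act1 e₁ e₄ 0 v < 64 ∧
        al1 e₁ e₁ (act1 e₁ e₄ 4 (act1 e₁ e₄ 0 v)) ∈ UL false := by decide +kernel
    have k1 := c.ad1 0 (by decide) v v.2
    have k2 := c.ad1 4 (by decide) _ (k e₁ e₄ v).1
    have k3 : s₁ * φ (mt1 e₁) * φ (al1 e₁ e₁ v) * (s₁ * φ (mt1 e₁))⁻¹ =
        φ (al1 e₁ e₁ (act1 e₁ e₄ 4 (act1 e₁ e₄ 0 v))) := by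
      beta_reduce at k1 k2
      rw [← k2, ← k1]
      change _ = s₁ * (φ (mt1 e₁) * _ * (φ (mt1 e₁))⁻¹) * s₁⁻¹
      group
    have k4 := eq_one_of_pm c.br1 hg k3 (by rw [← map_mul, (UL_mul _ _ m1).1, map_one])
      (by rw [← map_mul, (UL_mul _ _ (k e₁ e₄ v).2).1, map_one])
      (h.comm_iff.2 ((UL_mul _ _ m1).2.2 _ (k e₁ e₄ v).2).2)
    rw [fpf1 e₁ e₄ v (h.inj k4), map_one]

theorem Cfg.sd2 : Sd (gam φ e₁ e₄ s₁ s₄) vec2 (act2 e₁ e₄) := by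
  have t2 : φ (mt4 e₁ e₄) * φ (mt4 e₁ e₄) = 1 := by
    rw [← map_mul, (by decide +kernel : ∀ e e', mt4 e e' * mt4 e e' = 1), map_one]
  have cm : ∀ x : M, mt4 e₁ e₄ * x = x * mt4 e₁ e₄ →
      φ (mt4 e₁ e₄) * φ x = φ x * φ (mt4 e₁ e₄) := fun x hx => h.comm_iff.2 hx
  refine ⟨_, pmC (s₄ * φ (mt4 e₁ e₄)), c.ad2, fun u hu v hv => ?_, fun y hy => ?_, fun y hy => ?_,
    fun g hg h1 => ?_⟩
  · rw [← map_mul]; exact congrArg φ (xor2 e₄ ⟨u, hu⟩ ⟨v, hv⟩)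
  · rcases vec2_cases hy.le with rfl | rfl | h1
    · exact absurd hy (by decide)
    · exact absurd hy (by decide)
    · rw [gam_hd _ _ _ _ y (by rintro rfl; revert h1; decide) (by rintro rfl; revert h1; decide)]
      exact congrArg φ ((by decide +kernel : ∀ e₁ e₄, ∀ y ∈ [0, 1, 2, 3, 5, 8, 9, 10, 11, 12, 13],
        vec2 y < 64 → hm e₁ e₄ y = al2 e₄ e₄ (vec2 y)) e₁ e₄ y h1 hy)
  · have : y = 0 ∨ y = 1 ∨ y = 3 ∨ y = 4 ∨ y = 5 ∨ y = 7 ∨ y = 8 := by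
      rcases vec2_cases hy.le with rfl | rfl | h1
      · simp
      · simp
      · revert hy; revert y; decide
    have k0 : ∀ e₁ e₄, mt4 e₁ e₄ * mt1 e₁ = mt1 e₁ * mt4 e₁ e₄ ∧
        mt4 e₁ e₄ * ma2 e₁ = ma2 e₁ * mt4 e₁ e₄ ∧
        mt4 e₁ e₄ * ma1 e₁ = ma1 e₁ * mt4 e₁ e₄ := by decide +kernel
    have k9 : s₄ * φ (ma1 e₁) = φ (ma1 e₁) * s₄ := ma1_eq e₁ e₁ ▸ c.s4a'
    rcases this with rfl | rfl | rfl | rfl | rfl | rfl | rfl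
    · exact mem_pmC_of_comm c.c4t (cm _ (k0 e₁ e₄).1)
    · exact mem_pmC_of_comm c.s4a (cm _ (k0 e₁ e₄).2.1)
    · exact mem_pmC_right c.sq4 t2
    · exact mem_pmC_of_comm c.c14.symm c.c1t.symm
    · obtain ⟨m, m1, m2⟩ := cen_of h true (surj2 e₄) (comm_pr (trivA_spec c.ad2
        ((by decide +kernel : ∀ e₁ e₄, trivA vec2 (act2 e₁ e₄)
          (5 + 16 * (7 + 16 * (3 + 16 * (5 + 16 * (3 + 16 * (7 + 16 * 1)))))) = true) e₁ e₄)))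
      rw [ev6 _ _ _ _ (by omega) (by omega) (by omega)] at m2
      have k : ∀ e₁ e₄, mt4 e₁ e₄ * mt4 e₁ e₄ = 1 ∧ ms2 e₁ * ms2 e₁ = 1 ∧
          ms2 e₁ * ma1 e₁ * (ms2 e₁)⁻¹ = mt1 e₁ ∧
          ms2 e₁ * mt1 e₁ * (ms2 e₁)⁻¹ = ma1 e₁ ∧ mt4 e₁ e₄ * ma1 e₁ = ma1 e₁ * mt4 e₁ e₄ ∧
          mt4 e₁ e₄ * mt1 e₁ = mt1 e₁ * mt4 e₁ e₄ ∧ mt4 e₁ e₄ * ma2 e₁ = ma2 e₁ * mt4 e₁ e₄ ∧
          (ms2 e₁ * ma2 e₁) ^ 3 = 1 := by decide +kernel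
      obtain ⟨k1, k2, k3, k4, k5, k6, k7, k8⟩ := k e₁ e₄
      exact mem_pmC_new h c.sq4 k1 k2 m2 (UL_mul _ _ m1).1 k3 k4 k9 c.c4t
        k5 k6 c.s4a k7 k8 (cent2 e₁ m m1)
    · exact mem_pmC_left c.sq4 t2
    · exact mem_pmC_of_comm k9 (cm _ (k0 e₁ e₄).2.2)
  · obtain ⟨m, m1, rfl⟩ := cen_of h true (surj2 e₄) (comm_pr h1)
    obtain ⟨v, rfl⟩ := surj2 e₄ m m1
    have k : ∀ e₁ e₄, ∀ v : Fin 64, act2 e₁ e₄ 3 v < 64 ∧
        al2 e₄ e₄ (act2 e₁ e₄ 7 (act2 e₁ e₄ 3 v)) ∈ UL true := by decide +kernel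
    have k1 := c.ad2 3 (by decide) v v.2
    have k2 := c.ad2 7 (by decide) _ (k e₁ e₄ v).1
    have k3 : s₄ * φ (mt4 e₁ e₄) * φ (al2 e₄ e₄ v) * (s₄ * φ (mt4 e₁ e₄))⁻¹ =
        φ (al2 e₄ e₄ (act2 e₁ e₄ 7 (act2 e₁ e₄ 3 v))) := by
      beta_reduce at k1 k2
      rw [← k2, ← k1]
      change _ = s₄ * (φ (mt4 e₁ e₄) * _ * (φ (mt4 e₁ e₄))⁻¹) * s₄⁻¹
      group
    have k4 := eq_one_of_pm c.br4 hg k3 (by rw [← map_mul, (UL_mul _ _ m1).1, map_one])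
      (by rw [← map_mul, (UL_mul _ _ (k e₁ e₄ v).2).1, map_one])
      (h.comm_iff.2 ((UL_mul _ _ m1).2.2 _ (k e₁ e₄ v).2).2)
    rw [fpf2 e₁ e₄ v (h.inj k4), map_one]

end Cfsg.Agent.Lib.Held
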