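import Cfsg.Agent.Lib.Held.TC
import Cfsg.Agent.Lib.Held.Cfg

set_option autoImplicit false

/-! # Recognising relators: words in `H`, and words in a split extension `2⁶ : C` -/

namespace Cfsg.Agent.Lib.Held

open Cfsg.Agent.Lib.He TC

variable {G : Type*} [Group G]

theorem shr4 (W : ℕ) : Nat.shiftRight W 4 = W / 16 := Nat.shiftRight_eq_div_pow W 4

theorem not_le_of_ble {W : ℕ} (h : Nat.ble W 1 = false) : ¬ W ≤ 1 := fun h1 => by
  rw [Nat.ble_eq.mpr h1] at h; exact absurd h (by simp)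

/-- evaluation of a word in the model; `none` if a letter is `4` or `7` -/
noncomputable def runH (hm : ℕ → M) (f : ℕ) : ℕ → Option M :=
  Nat.rec (motive := fun _ => ℕ → Option M) (fun _ => none)
    (fun _ ih W => Bool.rec
      (Bool.rec (Option.rec none (fun a => some (hm (Nat.mod W 16) * a)) (ih (Nat.shiftRight W 4))) none
        (Nat.beq (Nat.mod W 16) 4 || Nat.beq (Nat.mod W 16) 7))
      (some 1) (Nat.ble W 1)) f

/-- the letters other than `4`, `7` come from the model -/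
def Hd (γ : ℕ → G) (φ : M →* G) (hm : ℕ → M) : Prop := ∀ y, y ≠ 4 → y ≠ 7 → γ y = φ (hm y)

theorem runH_spec {γ : ℕ → G} {φ : M →* G} {hm : ℕ → M} (h : Hd γ φ hm) (f : ℕ) :
    ∀ W a, runH hm f W = some a → ev γ W = φ a := by
  induction f with
  | zero => intro W a h; exact absurd h (by simp [runH])
  | succ f ih =>
    intro W a h1
    have h' : (Bool.rec
      (Bool.rec (Option.rec none (fun a => some (hm (Nat.mod W 16) * a)) (runH hm f (Nat.shiftRight W 4)))
        none (Nat.beq (Nat.mod W 16) 4 || Nat.beq (Nat.mod W 16) 7))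
      (some 1) (Nat.ble W 1) : Option M) = some a := h1
    cases h2 : Nat.ble W 1 <;> rw [h2] at h'
    · cases h3 : (Nat.beq (Nat.mod W 16) 4 || Nat.beq (Nat.mod W 16) 7) <;> rw [h3] at h'
      · cases h4 : runH hm f (Nat.shiftRight W 4) with
        | none => rw [h4] at h'; exact absurd h' (by simp)
        | some b =>
          rw [h4] at h'
          obtain rfl : hm (W % 16) * b = a := Option.some.inj h'
          simp only [Bool.or_eq_false_iff] at h3
          rw [ev_gt γ (not_le_of_ble h2), ← shr4, ih _ _ h4, map_mul,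
            h (W % 16) (Nat.ne_of_beq_eq_false h3.1) (Nat.ne_of_beq_eq_false h3.2)]
      · exact absurd h' (by simp)
    · obtain rfl : (1 : M) = a := Option.some.inj h'
      rw [ev_le γ (Nat.ble_eq.mp h2), map_one]

/-- test for a given value of a word -/
noncomputable def valH (hm : ℕ → M) (W : ℕ) (b : M) : Bool :=
  Option.rec false (fun a => decide (a = b)) (runH hm 17 W)

theorem valH_spec {γ : ℕ → G} {φ : M →* G} {hm : ℕ → M} (h : Hd γ φ hm) {W : ℕ} {b : M}
    (h1 : valH hm W b = true) : ev γ W = φ b := by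
  unfold valH at h1
  cases h2 : runH hm 17 W with
  | none => rw [h2] at h1; exact absurd h1 (by simp)
  | some a =>
    rw [h2] at h1
    obtain rfl : a = b := of_decide_eq_true h1
    exact runH_spec h _ _ _ h2

/-- action of a word on the vector `u`; a value `≥ 64` means failure -/
noncomputable def runA (vec : ℕ → ℕ) (act : ℕ → ℕ → ℕ) (u f : ℕ) : ℕ → ℕ :=
  Nat.rec (motive := fun _ => ℕ → ℕ) (fun _ => 64)
    (fun _ ih W => Bool.rec
      (Bool.rec 64 (act (Nat.mod W 16) (ih (Nat.shiftRight W 4)))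
        (Nat.blt (ih (Nat.shiftRight W 4)) 64 && Nat.ble (vec (Nat.mod W 16)) 64))
      u (Nat.ble W 1)) f

/-- translation part of a word; a value `≥ 64` means failure -/
noncomputable def runT (vec : ℕ → ℕ) (act : ℕ → ℕ → ℕ) (f : ℕ) : ℕ → ℕ :=
  Nat.rec (motive := fun _ => ℕ → ℕ) (fun _ => 64)
    (fun _ ih W => Bool.rec
      (Bool.rec 64 (Bool.rec (act (Nat.mod W 16) (ih (Nat.shiftRight W 4)))
          (Nat.xor (vec (Nat.mod W 16)) (ih (Nat.shiftRight W 4))) (Nat.blt (vec (Nat.mod W 16)) 64))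
        (Nat.blt (ih (Nat.shiftRight W 4)) 64 && Nat.ble (vec (Nat.mod W 16)) 64))
      0 (Nat.ble W 1)) f

/-- the word acts trivially on the basis -/
noncomputable def trivA (vec : ℕ → ℕ) (act : ℕ → ℕ → ℕ) (W : ℕ) : Bool :=
  [1, 2, 4, 8, 16, 32].all fun u => Nat.beq (runA vec act u 17 W) u

/-- relator test in the split extension -/
noncomputable def goodS (vec : ℕ → ℕ) (act : ℕ → ℕ → ℕ) (W : ℕ) : Bool :=
  Nat.beq (runT vec act 17 W) 0 && trivA vec act W

/-- the letters act on `α` according to the table -/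
def Ad (γ α : ℕ → G) (vec : ℕ → ℕ) (act : ℕ → ℕ → ℕ) : Prop :=
  ∀ y, vec y ≤ 64 → ∀ u < 64, γ y * α u * (γ y)⁻¹ = α (act y u)

theorem runA_spec {γ α : ℕ → G} {vec : ℕ → ℕ} {act : ℕ → ℕ → ℕ} (h : Ad γ α vec act) (u f : ℕ) :
    ∀ W, runA vec act u f W < 64 → ev γ W * α u * (ev γ W)⁻¹ = α (runA vec act u f W) := by
  induction f with
  | zero => intro W h; exact absurd h (by simp [runA])
  | succ f ih =>
    intro W
    have h' : runA vec act u (f + 1) W = (Bool.rec
      (Bool.rec 64 (act (Nat.mod W 16) (runA vec act u f (Nat.shiftRight W 4)))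
        (Nat.blt (runA vec act u f (Nat.shiftRight W 4)) 64 && Nat.ble (vec (Nat.mod W 16)) 64))
      u (Nat.ble W 1) : ℕ) := rfl
    rw [h', shr4]
    cases h2 : Nat.ble W 1
    · cases h3 : (Nat.blt (runA vec act u f (W / 16)) 64 && Nat.ble (vec (Nat.mod W 16)) 64)
      · intro h; exact absurd h (by simp)
      · intro _
        simp only [Bool.and_eq_true, Nat.blt_eq, Nat.ble_eq] at h3
        have h4 := h _ h3.2 _ h3.1
        rw [← ih _ h3.1] at h4
        rw [ev_gt γ (not_le_of_ble h2)]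
        refine Eq.trans ?_ h4
        rw [show W % 16 = Nat.mod W 16 from rfl]
        group
    · intro _
      simp [ev_le γ (Nat.ble_eq.mp h2)]

theorem trivA_spec {γ α : ℕ → G} {vec : ℕ → ℕ} {act : ℕ → ℕ → ℕ} (h : Ad γ α vec act) {W : ℕ}
    (h1 : trivA vec act W = true) :
    ∀ u ∈ [1, 2, 4, 8, 16, 32], ev γ W * α u * (ev γ W)⁻¹ = α u := by
  intro u hu
  have h2 := Nat.eq_of_beq_eq_true (List.all_eq_true.1 h1 u hu)
  have h3 : u < 64 := by
    simp only [List.mem_cons, List.not_mem_nil, or_false] at hu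
    omega
  have := runA_spec h u 17 W (by omega)
  rwa [h2] at this

/-- data of a split extension -/
def Sd (γ : ℕ → G) (vec : ℕ → ℕ) (act : ℕ → ℕ → ℕ) : Prop :=
  ∃ (α : ℕ → G) (C : Subgroup G), Ad γ α vec act ∧
    (∀ u < 64, ∀ v < 64, α (u ^^^ v) = α u * α v) ∧ (∀ y, vec y < 64 → γ y = α (vec y)) ∧
    (∀ y, vec y = 64 → γ y ∈ C) ∧
    ∀ c ∈ C, (∀ u ∈ [1, 2, 4, 8, 16, 32], c * α u * c⁻¹ = α u) → c = 1

theorem Sd.good {γ : ℕ → G} {vec : ℕ → ℕ} {act : ℕ → ℕ → ℕ} (h : Sd γ vec act) {W : ℕ}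
    (h1 : goodS vec act W = true) : ev γ W = 1 := by
  obtain ⟨α, C, ha, hx, hv, hc, ht⟩ := h
  have h0 : α 0 = 1 := by simpa using hx 0 (by omega) 0 (by omega)
  have key : ∀ f W, runT vec act f W < 64 → ∃ c ∈ C, ev γ W = α (runT vec act f W) * c := by
    intro f
    induction f with
    | zero => intro W h; exact absurd h (by simp [runT])
    | succ f ih =>
      intro W
      have h' : runT vec act (f + 1) W = (Bool.rec
        (Bool.rec 64 (Bool.rec (act (Nat.mod W 16) (runT vec act f (Nat.shiftRight W 4)))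
          (Nat.xor (vec (Nat.mod W 16)) (runT vec act f (Nat.shiftRight W 4)))
          (Nat.blt (vec (Nat.mod W 16)) 64))
        (Nat.blt (runT vec act f (Nat.shiftRight W 4)) 64 && Nat.ble (vec (Nat.mod W 16)) 64))
        0 (Nat.ble W 1) : ℕ) := rfl
      rw [h', shr4]
      cases h2 : Nat.ble W 1
      · cases h3 : (Nat.blt (runT vec act f (W / 16)) 64 && Nat.ble (vec (Nat.mod W 16)) 64)
        · intro h; exact absurd h (by simp)
        · intro _
          simp only [Bool.and_eq_true, Nat.blt_eq, Nat.ble_eq] at h3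
          obtain ⟨c, hc1, e⟩ := ih _ h3.1
          rw [ev_gt γ (not_le_of_ble h2), e, show W % 16 = Nat.mod W 16 from rfl]
          cases h4 : Nat.blt (vec (Nat.mod W 16)) 64
          · have h5 : ¬ vec (Nat.mod W 16) < 64 := fun h => by
              rw [Nat.blt_eq.mpr h] at h4; exact absurd h4 (by simp)
            refine ⟨γ (Nat.mod W 16) * c, C.mul_mem (hc _ (by omega)) hc1, ?_⟩
            change _ = α (act _ _) * _
            rw [← ha _ h3.2 _ h3.1]
            group
          · refine ⟨c, hc1, ?_⟩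
            change _ = α (vec _ ^^^ _) * _
            rw [hx _ (Nat.blt_eq.mp h4) _ h3.1, hv _ (Nat.blt_eq.mp h4), mul_assoc]
      · intro _
        exact ⟨1, C.one_mem, by simp [ev_le γ (Nat.ble_eq.mp h2), h0]⟩
  simp only [goodS, Bool.and_eq_true, Nat.beq_eq] at h1
  obtain ⟨c, hc1, e⟩ := key 17 W (by omega)
  rw [h1.1, h0, one_mul] at e
  exact ht _ (e ▸ hc1) (trivA_spec ha h1.2)

theorem Sd.comp {γ : ℕ → G} {vec : ℕ → ℕ} {act : ℕ → ℕ → ℕ} (h : Sd γ vec act) (σ : ℕ → ℕ) :
    Sd (fun y => γ (σ y)) (fun y => vec (σ y)) (fun y => act (σ y)) := by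
  obtain ⟨α, C, ha, hx, hv, hc, ht⟩ := h
  exact ⟨α, C, fun y => ha (σ y), hx, fun y => hv (σ y), fun y => hc (σ y), ht⟩

/-- relator test -/
noncomputable def good (hm : ℕ → M) (v₁ : ℕ → ℕ) (a₁ : ℕ → ℕ → ℕ) (v₂ : ℕ → ℕ) (a₂ : ℕ → ℕ → ℕ)
    (W : ℕ) : Bool := valH hm W 1 || (goodS v₁ a₁ W || goodS v₂ a₂ W)

theorem good_spec {γ : ℕ → G} {φ : M →* G} {hm : ℕ → M} {v₁ v₂ : ℕ → ℕ} {a₁ a₂ : ℕ → ℕ → ℕ}
    (h : Hd γ φ hm) (h₁ : Sd γ v₁ a₁) (h₂ : Sd γ v₂ a₂) (W : ℕ)
    (hW : good hm v₁ a₁ v₂ a₂ W = true) : ev γ W = 1 := by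
  simp only [good, Bool.or_eq_true] at hW
  rcases hW with h3 | h3 | h3
  · rw [valH_spec h h3, map_one]
  · exact h₁.good h3
  · exact h₂.good h3

/-- the elements inverting or centralising `r` -/
def pmC (r : G) : Subgroup G where
  carrier := {g | g * r * g⁻¹ = r ∨ g * r * g⁻¹ = r⁻¹}
  one_mem' := by simp
  mul_mem' := by
    intro a b ha hb
    have e : a * b * r * (a * b)⁻¹ = a * (b * r * b⁻¹) * a⁻¹ := by group
    have e' : a * r⁻¹ * a⁻¹ = (a * r * a⁻¹)⁻¹ := by group
    simp only [Set.mem_setOf_eq, e] at ha hb ⊢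
    rcases hb with hb | hb <;> rw [hb]
    · exact ha
    · rw [e']
      rcases ha with ha | ha <;> simp [ha]
  inv_mem' := by
    intro a ha
    rcases ha with ha | ha
    · left
      conv_lhs => rw [← ha]
      group
    · right
      have : r = a * r⁻¹ * a⁻¹ := by
        have := congrArg (·⁻¹) ha
        simp only [inv_inv] at this
        conv_lhs => rw [← this]
        group
      conv_lhs => rw [this]
      group

theorem mem_pmC_of_comm {s t g : G} (h1 : s * g = g * s) (h2 : t * g = g * t) : g ∈ pmC (s * t) :=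
  .inl (by rw [← mul_assoc, ← h1, mul_assoc s, ← h2]; group)

theorem mem_pmC_left {s t : G} (h1 : s * s = 1) (h2 : t * t = 1) : s ∈ pmC (s * t) := .inr (by
  rw [← mul_assoc, h1, mul_inv_rev, inv_eq_of_mul_eq_one_right h2, one_mul])

theorem mem_pmC_right {s t : G} (h1 : s * s = 1) (h2 : t * t = 1) : t ∈ pmC (s * t) := .inr (by
  rw [mul_inv_rev, inv_eq_of_mul_eq_one_right h1, inv_eq_of_mul_eq_one_right h2, mul_assoc, mul_assoc,
    h2, mul_one])

theorem eq_one_of_braid {r s b a : G} (h1 : s * r * s⁻¹ = a * r) (h2 : b * r * b⁻¹ = r)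
    (h3 : s * a = a * s) (h4 : b * a = a * b) (h5 : (s * b) ^ 3 = 1) (h6 : a * a = 1) : a = 1 := by
  have e1 : s * b * r * (s * b)⁻¹ = a * r := by
    rw [← h1]
    conv_rhs => rw [← h2]
    group
  have e2 : s * b * a * (s * b)⁻¹ = a := by
    rw [mul_assoc s, h4, ← mul_assoc, h3]; group
  generalize s * b = k at e1 e2 h5
  have e3 : ∀ x, k * (a * x) * k⁻¹ = a * (k * x * k⁻¹) := fun x => by
    conv_rhs => rw [← e2]
    group
  have e4 : k ^ 3 * r * (k ^ 3)⁻¹ = k * (k * (k * r * k⁻¹) * k⁻¹) * k⁻¹ := by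
    simp only [pow_succ, pow_zero, one_mul]; group
  rw [h5, e1, e3, e1, e3, e3, e1, ← mul_assoc a a, h6] at e4
  simpa using e4

/-- a product of some of six elements -/
def pr (a b c d e f : M) (v : ℕ) : M :=
  cond (bt v 0) a 1 * cond (bt v 1) b 1 * cond (bt v 2) c 1 * cond (bt v 3) d 1 *
    cond (bt v 4) e 1 * cond (bt v 5) f 1

theorem conj_pr (φ : M →* G) {s : G} {a b c d e f a' b' c' d' e' f' : M}
    (ha : s * φ a * s⁻¹ = φ a') (hb : s * φ b * s⁻¹ = φ b') (hc : s * φ c * s⁻¹ = φ c')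
    (hd : s * φ d * s⁻¹ = φ d') (he : s * φ e * s⁻¹ = φ e') (hf : s * φ f * s⁻¹ = φ f') (v : ℕ) :
    s * φ (pr a b c d e f v) * s⁻¹ = φ (pr a' b' c' d' e' f' v) := by
  have k : ∀ (x : Bool) {a a' : M}, s * φ a * s⁻¹ = φ a' → φ (cond x a' 1) = s * φ (cond x a 1) * s⁻¹ := by
    intro x a a' h
    cases x
    · simp
    · exact h.symm
  simp only [pr, map_mul, k _ ha, k _ hb, k _ hc, k _ hd, k _ he, k _ hf]
  group

end Cfsg.Agent.Lib.Held
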