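import Mathlib

set_option autoImplicit false

/-! # Certified coset tables for involutory generators

A table has a row of 16 entries (48 bits each) for every coset `c < n`; the entry of letter
`k < 14` is `b + 2^16 * (τ + 2^20 * r)`: target coset `b`, time stamp `τ`, relator number `r`.
Entry 14 of a row is the letter that defines the coset.  Words are packed in base 16, first letter
lowest, with a leading digit 1. -/

namespace Cfsg.Agent.Lib.Held.TC

/-- pages of rows -/
inductive Tr where
  | leaf : ℕ → Tr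
  | node : ℕ → Tr → Tr → Tr

/-- entry of coset `c`, letter `k` (64 rows per page) -/
noncomputable def Tr.get (t : Tr) (c k : ℕ) : ℕ :=
  Tr.rec (motive := fun _ => ℕ)
    (fun p => Nat.mod (Nat.shiftRight p (Nat.mul 48 (Nat.add (Nat.mul 16 (Nat.mod c 64)) k)))
      281474976710656)
    (fun m _ _ l r => Bool.rec l r (Nat.ble m c)) t

/-- target -/
def tg (e : ℕ) : ℕ := Nat.mod e 65536
/-- time stamp -/
def tm (e : ℕ) : ℕ := Nat.mod (Nat.shiftRight e 16) 1048576
/-- relator number -/
def rl (e : ℕ) : ℕ := Nat.shiftRight e 36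
/-- packed relator number `r` -/
def rot (R r : ℕ) : ℕ := Nat.mod (Nat.shiftRight R (Nat.mul 64 r)) 18446744073709551616

/-- bit test -/
def bt (m k : ℕ) : Bool := Nat.beq (Nat.mod (Nat.shiftRight m k) 2) 1

theorem bt_lt {m k : ℕ} (hm : m < 16384) (h : bt m k = true) : k < 14 := by
  by_contra h1
  have h2 : Nat.shiftRight m k = m / 2 ^ k := Nat.shiftRight_eq_div_pow m k
  have h3 : 2 ^ 14 ≤ 2 ^ k := Nat.pow_le_pow_right (by norm_num) (by omega)
  have h4 : m / 2 ^ k = 0 := Nat.div_eq_of_lt (by omega)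
  unfold bt at h
  rw [h2, h4] at h
  exact absurd h (by decide)

/-- evaluation forced before the continuation -/
noncomputable def frc (n : ℕ) (k : ℕ → Bool) : Bool :=
  Nat.rec (motive := fun _ => Bool) (k 0) (fun m _ => k (Nat.succ m)) n

theorem frc_eq (n : ℕ) (k : ℕ → Bool) : frc n k = k n := by cases n <;> rfl

variable {Γ : Type*} [Group Γ]

/-- value of a packed word -/
def ev (γ : ℕ → Γ) (W : ℕ) : Γ :=
  if h : W ≤ 1 then 1 else γ (W % 16) * ev γ (W / 16)
termination_by W
decreasing_by omega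

theorem ev_le (γ : ℕ → Γ) {W : ℕ} (h : W ≤ 1) : ev γ W = 1 := by rw [ev, dif_pos h]

theorem ev_gt (γ : ℕ → Γ) {W : ℕ} (h : ¬ W ≤ 1) : ev γ W = γ (W % 16) * ev γ (W / 16) := by
  rw [ev, dif_neg h]

/-- trace the word `W` from `c` to `a` along entries older than `τ` -/
noncomputable def trace (t : Tr) (al τ a : ℕ) (fuel : ℕ) : ℕ → ℕ → Bool :=
  Nat.rec (motive := fun _ => ℕ → ℕ → Bool) (fun _ _ => false)
    (fun _ ih W c => Bool.rec
      (frc (t.get c (Nat.mod W 16)) fun e =>
        Bool.rec false (Bool.rec false (frc (tg e) fun b => frc (Nat.shiftRight W 4) fun W' => ih W' b)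
          (Nat.blt (tm e) τ)) (bt al (Nat.mod W 16)))
      (Nat.beq c a) (Nat.ble W 1)) fuel

/-- check of the entry `(c, k)` -/
noncomputable def chk1 (t : Tr) (R al sub n c k : ℕ) : Bool :=
  frc (t.get c k) fun e => Bool.rec false
    (Nat.rec (motive := fun _ => Bool)
      (Bool.rec
        (and (Nat.beq (t.get c 14) k) (Nat.blt (tg e) c))
        (and (Nat.beq (tg e) 0) (bt sub k)) (Nat.beq c 0))
      (fun r _ => frc (rot R r) fun W => Bool.rec false
        (Bool.rec (frc (tm e) fun τ => frc (tg e) fun b => trace t al τ c 17 (Nat.shiftRight W 4) b) false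
          (Nat.ble W 1))
        (Nat.beq (Nat.mod W 16) k)) (rl e))
    (Nat.blt (tg e) n)

/-- check of the letters `< k` in row `c` -/
noncomputable def chkRow (t : Tr) (R al sub n c : ℕ) (k : ℕ) : Bool :=
  Nat.rec (motive := fun _ => Bool) true (fun j ih => Bool.rec ih (Bool.rec false ih (chk1 t R al sub n c j)) (bt al j)) k

/-- check of the rows `lo, ..., lo + m - 1` -/
noncomputable def chunk (t : Tr) (R al sub n lo : ℕ) (m : ℕ) : Bool :=
  Nat.rec (motive := fun _ => Bool) true
    (fun j ih => Bool.rec false ih (frc (Nat.add lo j) fun c => chkRow t R al sub n c 14)) m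

theorem chkRow_spec {t : Tr} {R al sub n c : ℕ} : ∀ {k : ℕ}, chkRow t R al sub n c k = true →
    ∀ j < k, bt al j = true → chk1 t R al sub n c j = true := by
  intro k
  induction k with
  | zero => intro _ j hj; omega
  | succ k ih =>
    intro h j hj hb
    have h' : (Bool.rec (chkRow t R al sub n c k) (Bool.rec false (chkRow t R al sub n c k)
      (chk1 t R al sub n c k)) (bt al k) : Bool) = true := h
    rcases Nat.lt_succ_iff_lt_or_eq.1 hj with h2 | rfl
    · refine ih ?_ j h2 hb
      cases h0 : bt al k <;> rw [h0] at h'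
      · exact h'
      · cases h1 : chk1 t R al sub n c k <;> rw [h1] at h'
        · exact absurd h' (by simp)
        · exact h'
    · rw [hb] at h'
      cases h1 : chk1 t R al sub n c j
      · rw [h1] at h'
        exact absurd h' (by simp)
      · rfl

/-- all rows below `hi` are checked -/
def Ok (t : Tr) (R al sub n hi : ℕ) : Prop :=
  ∀ c < hi, ∀ k < 14, bt al k = true → chk1 t R al sub n c k = true

theorem Ok.zero {t : Tr} {R al sub n : ℕ} : Ok t R al sub n 0 := fun _ h => absurd h (by omega)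

theorem Ok.step {t : Tr} {R al sub n lo : ℕ} (h : Ok t R al sub n lo) : ∀ {m : ℕ},
    chunk t R al sub n lo m = true → Ok t R al sub n (lo + m) := by
  intro m
  induction m with
  | zero => intro _; exact h
  | succ m ih =>
    intro h1 c hc
    have h' : (Bool.rec false (chunk t R al sub n lo m)
      (frc (Nat.add lo m) fun c => chkRow t R al sub n c 14) : Bool) = true := h1
    rw [frc_eq] at h'
    cases h2 : chkRow t R al sub n (Nat.add lo m) 14 <;> rw [h2] at h'
    · exact absurd h' (by simp)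
    · rcases Nat.lt_succ_iff_lt_or_eq.1 (show c < (lo + m).succ from hc) with h3 | rfl
      · exact ih h' c h3
      · exact chkRow_spec h2

/-- coset representatives -/
noncomputable def rep (γ : ℕ → Γ) (t : Tr) (c : ℕ) : Γ :=
  if 0 < c ∧ tg (t.get c (t.get c 14)) < c then
    rep γ t (tg (t.get c (t.get c 14))) * (γ (t.get c 14))⁻¹ else 1
termination_by c
decreasing_by omega

theorem rep_zero (γ : ℕ → Γ) (t : Tr) : rep γ t 0 = 1 := by
  rw [rep]; simp

/-- the meaning of an entry -/
def Holds (γ : ℕ → Γ) (K : Subgroup Γ) (t : Tr) (c k : ℕ) : Prop :=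
  rep γ t c * γ k * (rep γ t (tg (t.get c k)))⁻¹ ∈ K

variable {γ : ℕ → Γ} {K : Subgroup Γ} {t : Tr}

theorem trace_spec {al τ a n : ℕ} (hn : ∀ c < n, ∀ k, bt al k = true → tg (t.get c k) < n)
    (hi : ∀ c < n, ∀ k, bt al k = true → tm (t.get c k) < τ → Holds γ K t c k) (fuel : ℕ) :
    ∀ W c, c < n → trace t al τ a fuel W c = true → rep γ t c * ev γ W * (rep γ t a)⁻¹ ∈ K := by
  induction fuel with
  | zero => intro W c _ h; exact absurd h (by simp [trace])
  | succ f ih =>
    intro W c hc h
    have h' : (Bool.rec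
      (frc (t.get c (Nat.mod W 16)) fun e =>
        Bool.rec false (Bool.rec false (frc (tg e) fun b => frc (Nat.shiftRight W 4) fun W' =>
          trace t al τ a f W' b) (Nat.blt (tm e) τ)) (bt al (Nat.mod W 16)))
      (Nat.beq c a) (Nat.ble W 1) : Bool) = true := h
    cases h1 : Nat.ble W 1 <;> rw [h1] at h'
    · have h2 : ¬ W ≤ 1 := fun h => by rw [Nat.ble_eq.mpr h] at h1; exact absurd h1 (by simp)
      simp only [frc_eq] at h'
      cases h3 : bt al (Nat.mod W 16) <;> rw [h3] at h'
      · exact absurd h' (by simp)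
      cases h4 : Nat.blt (tm (t.get c (Nat.mod W 16))) τ <;> rw [h4] at h'
      · exact absurd h' (by simp)
      have h6 := ih _ _ (hn c hc _ h3) h'
      have h7 := hi c hc _ h3 (Nat.blt_eq.mp h4)
      have h8 : Nat.shiftRight W 4 = W / 16 := Nat.shiftRight_eq_div_pow W 4
      rw [h8] at h6
      rw [ev_gt γ h2]
      have := K.mul_mem h7 h6
      rw [show W % 16 = Nat.mod W 16 from rfl]
      simpa [mul_assoc] using this
    · obtain rfl := Nat.eq_of_beq_eq_true h'
      rw [ev_le γ (Nat.ble_eq.mp h1)]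
      simp

theorem chk1_lt {R al sub n c k : ℕ} (h : chk1 t R al sub n c k = true) : tg (t.get c k) < n := by
  unfold chk1 at h
  rw [frc_eq] at h
  cases h1 : Nat.blt (tg (t.get c k)) n <;> rw [h1] at h
  · exact absurd h (by simp)
  · exact Nat.blt_eq.mp h1

theorem chk1_spec {R al sub n c k : ℕ} (hr : ∀ r, ev γ (rot R r) = 1)
    (hs : ∀ y, bt sub y = true → γ y ∈ K) 
    (hn : ∀ c < n, ∀ k, bt al k = true → tg (t.get c k) < n)
    (h : chk1 t R al sub n c k = true)
    (hi : ∀ c' < n, ∀ k', bt al k' = true → tm (t.get c' k') < tm (t.get c k) → Holds γ K t c' k') :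
    Holds γ K t c k := by
  have h0 := chk1_lt h
  unfold chk1 at h
  rw [frc_eq, Nat.blt_eq.mpr h0] at h
  unfold Holds
  cases h1 : rl (t.get c k) with
  | zero =>
    rw [h1] at h
    have h' : (Bool.rec
        (and (Nat.beq (t.get c 14) k) (Nat.blt (tg (t.get c k)) c))
        (and (Nat.beq (tg (t.get c k)) 0) (bt sub k)) (Nat.beq c 0) : Bool) = true := h
    cases h2 : Nat.beq c 0 <;> rw [h2] at h'
    · simp only [Bool.and_eq_true, Nat.beq_eq, Nat.blt_eq] at h'
      obtain ⟨rfl, h3⟩ := h'
      rw [rep.eq_1 γ t c, if_pos ⟨by omega, h3⟩]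
      simp
    · simp only [Bool.and_eq_true, Nat.beq_eq] at h'
      obtain rfl := Nat.eq_of_beq_eq_true h2
      rw [h'.1, rep_zero]
      simpa using hs _ h'.2
  | succ r =>
    rw [h1] at h
    have h' : (frc (rot R r) fun W => Bool.rec false
        (Bool.rec (frc (tm (t.get c k)) fun τ => frc (tg (t.get c k)) fun b =>
          trace t al τ c 17 (Nat.shiftRight W 4) b) false (Nat.ble W 1))
        (Nat.beq (Nat.mod W 16) k)) = true := h
    simp only [frc_eq] at h'
    have h2 := hr r
    generalize rot R r = W at h' h2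
    cases h3 : Nat.beq (Nat.mod W 16) k <;> rw [h3] at h'
    · exact absurd h' (by simp)
    cases h4 : Nat.ble W 1 <;> rw [h4] at h'
    swap
    · exact absurd h' (by simp)
    have h5 : ¬ W ≤ 1 := fun h => by rw [Nat.ble_eq.mpr h] at h4; exact absurd h4 (by simp)
    have h6 := K.inv_mem (trace_spec hn hi _ _ _ h0 h')
    have h8 : Nat.shiftRight W 4 = W / 16 := Nat.shiftRight_eq_div_pow W 4
    have h9 : W % 16 = k := Nat.eq_of_beq_eq_true h3
    rw [ev_gt γ h5, h9] at h2
    rw [h8, eq_inv_of_mul_eq_one_right h2] at h6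
    simpa [mul_assoc] using h6

theorem Ok.lt {R al sub n : ℕ} (h : Ok t R al sub n n) (ha : al < 16384) :
    ∀ c < n, ∀ k, bt al k = true → tg (t.get c k) < n :=
  fun c hc k hk => chk1_lt (h c hc k (bt_lt ha hk) hk)

theorem Ok.holds {R al sub n : ℕ} (h : Ok t R al sub n n) (ha : al < 16384)
    (hr : ∀ r, ev γ (rot R r) = 1) (hs : ∀ y, bt sub y = true → γ y ∈ K) :
    ∀ c < n, ∀ k, bt al k = true → Holds γ K t c k := by
  have key : ∀ τ, ∀ c < n, ∀ k, bt al k = true → tm (t.get c k) < τ → Holds γ K t c k := by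
    intro τ
    induction τ with
    | zero => intro c _ k _ h; omega
    | succ τ ih =>
      intro c hc k hk h1
      exact chk1_spec hr hs (h.lt ha) (h c hc k (bt_lt ha hk) hk)
        fun c' hc' k' hk' h2 => ih c' hc' k' hk' (by omega)
  exact fun c hc k hk => key _ c hc k hk (Nat.lt_succ_self _)

theorem Ok.mem {R al sub n : ℕ} (h : Ok t R al sub n n) (ha : al < 16384)
    (hr : ∀ r, ev γ (rot R r) = 1) (hs : ∀ y, bt sub y = true → γ y ∈ K) (h0 : 0 < n) {W fuel : ℕ}
    (hW : trace t al 1048576 0 fuel W 0 = true) : ev γ W ∈ K := by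
  have := trace_spec (h.lt ha) (fun c hc k hk _ => h.holds ha hr hs c hc k hk) fuel W 0 h0 hW
  simpa [rep_zero] using this

theorem Ok.card [Finite Γ] {R al sub n : ℕ} (h : Ok t R al sub n n) (ha : al < 16384)
    (hr : ∀ r, ev γ (rot R r) = 1) (hs : ∀ y, bt sub y = true → γ y ∈ K) (h0 : 0 < n) :
    Nat.card (Subgroup.closure (γ '' {k | bt al k = true})) ≤ n * Nat.card K := by
  have key : ∀ g ∈ Subgroup.closure (γ '' {k | bt al k = true}),
      ∃ c < n, g * (rep γ t c)⁻¹ ∈ K := by
    intro g hg
    rw [← Subgroup.mem_toSubmonoid, Subgroup.closure_toSubmonoid_of_finite] at hg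
    induction hg using Submonoid.closure_induction_right with
    | one => exact ⟨0, h0, by simp [rep_zero]⟩
    | mul_right x hx y hy ih =>
      obtain ⟨c, hc, ih⟩ := ih
      obtain ⟨k, hk, rfl⟩ := hy
      refine ⟨_, h.lt ha c hc k hk, ?_⟩
      simpa [mul_assoc] using K.mul_mem ih (h.holds ha hr hs c hc k hk)
  choose c hc hc' using key
  let φ : Subgroup.closure (γ '' {k | bt al k = true}) → Fin n × K :=
    fun g => (⟨c g g.2, hc g g.2⟩, ⟨_, hc' g g.2⟩)
  have hφ : Function.Injective φ := by
    intro g g' e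
    have e1 : c g g.2 = c g' g'.2 := congrArg (fun x => (x.1 : ℕ)) e
    have e2 : (g : Γ) * (rep γ t (c g g.2))⁻¹ = g' * (rep γ t (c g' g'.2))⁻¹ :=
      congrArg (fun x => (x.2 : Γ)) e
    rw [e1] at e2
    exact Subtype.ext (mul_right_cancel e2)
  simpa using Nat.card_le_card_of_injective φ hφ

/-- the relators are checked one by one -/
theorem rot_all {R m : ℕ} {P : ℕ → Bool} (hR : R < 2 ^ (64 * m))
    (h : (List.range m).all (fun r => P (rot R r)) = true) (hP : ∀ W, P W = true → ev γ W = 1) :
    ∀ r, ev γ (rot R r) = 1 := by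
  intro r
  rcases lt_or_ge r m with h1 | h1
  · exact hP _ (List.all_eq_true.1 h r (List.mem_range.2 h1))
  · have h2 : Nat.shiftRight R (Nat.mul 64 r) = R / 2 ^ (64 * r) := Nat.shiftRight_eq_div_pow _ _
    have h3 : 2 ^ (64 * m) ≤ 2 ^ (64 * r) := Nat.pow_le_pow_right (by norm_num) (by omega)
    unfold rot
    rw [h2, Nat.div_eq_of_lt (by omega)]
    exact ev_le γ (by decide)

end Cfsg.Agent.Lib.Held.TC
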