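import Cfsg.Agent.Lib.Held.TH

set_option autoImplicit false
set_option maxRecDepth 100000

namespace Cfsg.Agent.Lib.Held

open TC

theorem TH_c0 : chunk TH_t TH_R 16383 16319 29155 0 200 = true := by decide +kernel
theorem TH_c1 : chunk TH_t TH_R 16383 16319 29155 200 200 = true := by decide +kernel
theorem TH_c2 : chunk TH_t TH_R 16383 16319 29155 400 200 = true := by decide +kernel
theorem TH_c3 : chunk TH_t TH_R 16383 16319 29155 600 200 = true := by decide +kernel
theorem TH_c4 : chunk TH_t TH_R 16383 16319 29155 800 200 = true := by decide +kernel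
theorem TH_c5 : chunk TH_t TH_R 16383 16319 29155 1000 200 = true := by decide +kernel
theorem TH_c6 : chunk TH_t TH_R 16383 16319 29155 1200 200 = true := by decide +kernel
theorem TH_c7 : chunk TH_t TH_R 16383 16319 29155 1400 200 = true := by decide +kernel
theorem TH_c8 : chunk TH_t TH_R 16383 16319 29155 1600 200 = true := by decide +kernel
theorem TH_c9 : chunk TH_t TH_R 16383 16319 29155 1800 200 = true := by decide +kernel
theorem TH_c10 : chunk TH_t TH_R 16383 16319 29155 2000 200 = true := by decide +kernel
theorem TH_c11 : chunk TH_t TH_R 16383 16319 29155 2200 200 = true := by decide +kernel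
theorem TH_c12 : chunk TH_t TH_R 16383 16319 29155 2400 200 = true := by decide +kernel
theorem TH_c13 : chunk TH_t TH_R 16383 16319 29155 2600 200 = true := by decide +kernel
theorem TH_c14 : chunk TH_t TH_R 16383 16319 29155 2800 200 = true := by decide +kernel

end Cfsg.Agent.Lib.Held
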