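import Cfsg.Agent.Lib.Held.TH

set_option autoImplicit false
set_option maxRecDepth 100000

namespace Cfsg.Agent.Lib.Held

open TC

theorem TH_c15 : chunk TH_t TH_R 16383 16319 29155 3000 200 = true := by decide +kernel
theorem TH_c16 : chunk TH_t TH_R 16383 16319 29155 3200 200 = true := by decide +kernel
theorem TH_c17 : chunk TH_t TH_R 16383 16319 29155 3400 200 = true := by decide +kernel
theorem TH_c18 : chunk TH_t TH_R 16383 16319 29155 3600 200 = true := by decide +kernel
theorem TH_c19 : chunk TH_t TH_R 16383 16319 29155 3800 200 = true := by decide +kernel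
theorem TH_c20 : chunk TH_t TH_R 16383 16319 29155 4000 200 = true := by decide +kernel
theorem TH_c21 : chunk TH_t TH_R 16383 16319 29155 4200 200 = true := by decide +kernel
theorem TH_c22 : chunk TH_t TH_R 16383 16319 29155 4400 200 = true := by decide +kernel
theorem TH_c23 : chunk TH_t TH_R 16383 16319 29155 4600 200 = true := by decide +kernel
theorem TH_c24 : chunk TH_t TH_R 16383 16319 29155 4800 200 = true := by decide +kernel
theorem TH_c25 : chunk TH_t TH_R 16383 16319 29155 5000 200 = true := by decide +kernel
theorem TH_c26 : chunk TH_t TH_R 16383 16319 29155 5200 200 = true := by decide +kernel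
theorem TH_c27 : chunk TH_t TH_R 16383 16319 29155 5400 200 = true := by decide +kernel
theorem TH_c28 : chunk TH_t TH_R 16383 16319 29155 5600 200 = true := by decide +kernel
theorem TH_c29 : chunk TH_t TH_R 16383 16319 29155 5800 200 = true := by decide +kernel

end Cfsg.Agent.Lib.Held
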