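import Cfsg.Agent.Lib.Held.TH

set_option autoImplicit false
set_option maxRecDepth 100000

namespace Cfsg.Agent.Lib.Held

open TC

theorem TH_c30 : chunk TH_t TH_R 16383 16319 29155 6000 200 = true := by decide +kernel
theorem TH_c31 : chunk TH_t TH_R 16383 16319 29155 6200 200 = true := by decide +kernel
theorem TH_c32 : chunk TH_t TH_R 16383 16319 29155 6400 200 = true := by decide +kernel
theorem TH_c33 : chunk TH_t TH_R 16383 16319 29155 6600 200 = true := by decide +kernel
theorem TH_c34 : chunk TH_t TH_R 16383 16319 29155 6800 200 = true := by decide +kernel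
theorem TH_c35 : chunk TH_t TH_R 16383 16319 29155 7000 200 = true := by decide +kernel
theorem TH_c36 : chunk TH_t TH_R 16383 16319 29155 7200 200 = true := by decide +kernel
theorem TH_c37 : chunk TH_t TH_R 16383 16319 29155 7400 200 = true := by decide +kernel
theorem TH_c38 : chunk TH_t TH_R 16383 16319 29155 7600 200 = true := by decide +kernel
theorem TH_c39 : chunk TH_t TH_R 16383 16319 29155 7800 200 = true := by decide +kernel
theorem TH_c40 : chunk TH_t TH_R 16383 16319 29155 8000 200 = true := by decide +kernel
theorem TH_c41 : chunk TH_t TH_R 16383 16319 29155 8200 200 = true := by decide +kernel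
theorem TH_c42 : chunk TH_t TH_R 16383 16319 29155 8400 200 = true := by decide +kernel
theorem TH_c43 : chunk TH_t TH_R 16383 16319 29155 8600 200 = true := by decide +kernel
theorem TH_c44 : chunk TH_t TH_R 16383 16319 29155 8800 200 = true := by decide +kernel

end Cfsg.Agent.Lib.Held
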