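import Cfsg.Agent.Lib.Held.TH

set_option autoImplicit false
set_option maxRecDepth 100000

namespace Cfsg.Agent.Lib.Held

open TC

theorem TH_c45 : chunk TH_t TH_R 16383 16319 29155 9000 200 = true := by decide +kernel
theorem TH_c46 : chunk TH_t TH_R 16383 16319 29155 9200 200 = true := by decide +kernel
theorem TH_c47 : chunk TH_t TH_R 16383 16319 29155 9400 200 = true := by decide +kernel
theorem TH_c48 : chunk TH_t TH_R 16383 16319 29155 9600 200 = true := by decide +kernel
theorem TH_c49 : chunk TH_t TH_R 16383 16319 29155 9800 200 = true := by decide +kernel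
theorem TH_c50 : chunk TH_t TH_R 16383 16319 29155 10000 200 = true := by decide +kernel
theorem TH_c51 : chunk TH_t TH_R 16383 16319 29155 10200 200 = true := by decide +kernel
theorem TH_c52 : chunk TH_t TH_R 16383 16319 29155 10400 200 = true := by decide +kernel
theorem TH_c53 : chunk TH_t TH_R 16383 16319 29155 10600 200 = true := by decide +kernel
theorem TH_c54 : chunk TH_t TH_R 16383 16319 29155 10800 200 = true := by decide +kernel
theorem TH_c55 : chunk TH_t TH_R 16383 16319 29155 11000 200 = true := by decide +kernel
theorem TH_c56 : chunk TH_t TH_R 16383 16319 29155 11200 200 = true := by decide +kernel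
theorem TH_c57 : chunk TH_t TH_R 16383 16319 29155 11400 200 = true := by decide +kernel
theorem TH_c58 : chunk TH_t TH_R 16383 16319 29155 11600 200 = true := by decide +kernel
theorem TH_c59 : chunk TH_t TH_R 16383 16319 29155 11800 200 = true := by decide +kernel

end Cfsg.Agent.Lib.Held
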