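import Cfsg.Agent.Lib.Held.TH

set_option autoImplicit false
set_option maxRecDepth 100000

namespace Cfsg.Agent.Lib.Held

open TC

theorem TH_c60 : chunk TH_t TH_R 16383 16319 29155 12000 200 = true := by decide +kernel
theorem TH_c61 : chunk TH_t TH_R 16383 16319 29155 12200 200 = true := by decide +kernel
theorem TH_c62 : chunk TH_t TH_R 16383 16319 29155 12400 200 = true := by decide +kernel
theorem TH_c63 : chunk TH_t TH_R 16383 16319 29155 12600 200 = true := by decide +kernel
theorem TH_c64 : chunk TH_t TH_R 16383 16319 29155 12800 200 = true := by decide +kernel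
theorem TH_c65 : chunk TH_t TH_R 16383 16319 29155 13000 200 = true := by decide +kernel
theorem TH_c66 : chunk TH_t TH_R 16383 16319 29155 13200 200 = true := by decide +kernel
theorem TH_c67 : chunk TH_t TH_R 16383 16319 29155 13400 200 = true := by decide +kernel
theorem TH_c68 : chunk TH_t TH_R 16383 16319 29155 13600 200 = true := by decide +kernel
theorem TH_c69 : chunk TH_t TH_R 16383 16319 29155 13800 200 = true := by decide +kernel
theorem TH_c70 : chunk TH_t TH_R 16383 16319 29155 14000 200 = true := by decide +kernel
theorem TH_c71 : chunk TH_t TH_R 16383 16319 29155 14200 200 = true := by decide +kernel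
theorem TH_c72 : chunk TH_t TH_R 16383 16319 29155 14400 200 = true := by decide +kernel
theorem TH_c73 : chunk TH_t TH_R 16383 16319 29155 14600 200 = true := by decide +kernel
theorem TH_c74 : chunk TH_t TH_R 16383 16319 29155 14800 200 = true := by decide +kernel

end Cfsg.Agent.Lib.Held
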