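import Cfsg.Agent.Lib.Held.TH

set_option autoImplicit false
set_option maxRecDepth 100000

namespace Cfsg.Agent.Lib.Held

open TC

theorem TH_c75 : chunk TH_t TH_R 16383 16319 29155 15000 200 = true := by decide +kernel
theorem TH_c76 : chunk TH_t TH_R 16383 16319 29155 15200 200 = true := by decide +kernel
theorem TH_c77 : chunk TH_t TH_R 16383 16319 29155 15400 200 = true := by decide +kernel
theorem TH_c78 : chunk TH_t TH_R 16383 16319 29155 15600 200 = true := by decide +kernel
theorem TH_c79 : chunk TH_t TH_R 16383 16319 29155 15800 200 = true := by decide +kernel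
theorem TH_c80 : chunk TH_t TH_R 16383 16319 29155 16000 200 = true := by decide +kernel
theorem TH_c81 : chunk TH_t TH_R 16383 16319 29155 16200 200 = true := by decide +kernel
theorem TH_c82 : chunk TH_t TH_R 16383 16319 29155 16400 200 = true := by decide +kernel
theorem TH_c83 : chunk TH_t TH_R 16383 16319 29155 16600 200 = true := by decide +kernel
theorem TH_c84 : chunk TH_t TH_R 16383 16319 29155 16800 200 = true := by decide +kernel
theorem TH_c85 : chunk TH_t TH_R 16383 16319 29155 17000 200 = true := by decide +kernel
theorem TH_c86 : chunk TH_t TH_R 16383 16319 29155 17200 200 = true := by decide +kernel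
theorem TH_c87 : chunk TH_t TH_R 16383 16319 29155 17400 200 = true := by decide +kernel
theorem TH_c88 : chunk TH_t TH_R 16383 16319 29155 17600 200 = true := by decide +kernel
theorem TH_c89 : chunk TH_t TH_R 16383 16319 29155 17800 200 = true := by decide +kernel

end Cfsg.Agent.Lib.Held
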