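import Cfsg.Agent.Lib.Held.TH

set_option autoImplicit false
set_option maxRecDepth 100000

namespace Cfsg.Agent.Lib.Held

open TC

theorem TH_c90 : chunk TH_t TH_R 16383 16319 29155 18000 200 = true := by decide +kernel
theorem TH_c91 : chunk TH_t TH_R 16383 16319 29155 18200 200 = true := by decide +kernel
theorem TH_c92 : chunk TH_t TH_R 16383 16319 29155 18400 200 = true := by decide +kernel
theorem TH_c93 : chunk TH_t TH_R 16383 16319 29155 18600 200 = true := by decide +kernel
theorem TH_c94 : chunk TH_t TH_R 16383 16319 29155 18800 200 = true := by decide +kernel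
theorem TH_c95 : chunk TH_t TH_R 16383 16319 29155 19000 200 = true := by decide +kernel
theorem TH_c96 : chunk TH_t TH_R 16383 16319 29155 19200 200 = true := by decide +kernel
theorem TH_c97 : chunk TH_t TH_R 16383 16319 29155 19400 200 = true := by decide +kernel
theorem TH_c98 : chunk TH_t TH_R 16383 16319 29155 19600 200 = true := by decide +kernel
theorem TH_c99 : chunk TH_t TH_R 16383 16319 29155 19800 200 = true := by decide +kernel
theorem TH_c100 : chunk TH_t TH_R 16383 16319 29155 20000 200 = true := by decide +kernel
theorem TH_c101 : chunk TH_t TH_R 16383 16319 29155 20200 200 = true := by decide +kernel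
theorem TH_c102 : chunk TH_t TH_R 16383 16319 29155 20400 200 = true := by decide +kernel
theorem TH_c103 : chunk TH_t TH_R 16383 16319 29155 20600 200 = true := by decide +kernel
theorem TH_c104 : chunk TH_t TH_R 16383 16319 29155 20800 200 = true := by decide +kernel

end Cfsg.Agent.Lib.Held
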