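import Cfsg.Agent.Lib.Held.TH

set_option autoImplicit false
set_option maxRecDepth 100000

namespace Cfsg.Agent.Lib.Held

open TC

theorem TH_c105 : chunk TH_t TH_R 16383 16319 29155 21000 200 = true := by decide +kernel
theorem TH_c106 : chunk TH_t TH_R 16383 16319 29155 21200 200 = true := by decide +kernel
theorem TH_c107 : chunk TH_t TH_R 16383 16319 29155 21400 200 = true := by decide +kernel
theorem TH_c108 : chunk TH_t TH_R 16383 16319 29155 21600 200 = true := by decide +kernel
theorem TH_c109 : chunk TH_t TH_R 16383 16319 29155 21800 200 = true := by decide +kernel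
theorem TH_c110 : chunk TH_t TH_R 16383 16319 29155 22000 200 = true := by decide +kernel
theorem TH_c111 : chunk TH_t TH_R 16383 16319 29155 22200 200 = true := by decide +kernel
theorem TH_c112 : chunk TH_t TH_R 16383 16319 29155 22400 200 = true := by decide +kernel
theorem TH_c113 : chunk TH_t TH_R 16383 16319 29155 22600 200 = true := by decide +kernel
theorem TH_c114 : chunk TH_t TH_R 16383 16319 29155 22800 200 = true := by decide +kernel
theorem TH_c115 : chunk TH_t TH_R 16383 16319 29155 23000 200 = true := by decide +kernel
theorem TH_c116 : chunk TH_t TH_R 16383 16319 29155 23200 200 = true := by decide +kernel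
theorem TH_c117 : chunk TH_t TH_R 16383 16319 29155 23400 200 = true := by decide +kernel
theorem TH_c118 : chunk TH_t TH_R 16383 16319 29155 23600 200 = true := by decide +kernel
theorem TH_c119 : chunk TH_t TH_R 16383 16319 29155 23800 200 = true := by decide +kernel

end Cfsg.Agent.Lib.Held
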