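import Cfsg.Agent.Lib.Held.TH

set_option autoImplicit false
set_option maxRecDepth 100000

namespace Cfsg.Agent.Lib.Held

open TC

theorem TH_c120 : chunk TH_t TH_R 16383 16319 29155 24000 200 = true := by decide +kernel
theorem TH_c121 : chunk TH_t TH_R 16383 16319 29155 24200 200 = true := by decide +kernel
theorem TH_c122 : chunk TH_t TH_R 16383 16319 29155 24400 200 = true := by decide +kernel
theorem TH_c123 : chunk TH_t TH_R 16383 16319 29155 24600 200 = true := by decide +kernel
theorem TH_c124 : chunk TH_t TH_R 16383 16319 29155 24800 200 = true := by decide +kernel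
theorem TH_c125 : chunk TH_t TH_R 16383 16319 29155 25000 200 = true := by decide +kernel
theorem TH_c126 : chunk TH_t TH_R 16383 16319 29155 25200 200 = true := by decide +kernel
theorem TH_c127 : chunk TH_t TH_R 16383 16319 29155 25400 200 = true := by decide +kernel
theorem TH_c128 : chunk TH_t TH_R 16383 16319 29155 25600 200 = true := by decide +kernel
theorem TH_c129 : chunk TH_t TH_R 16383 16319 29155 25800 200 = true := by decide +kernel
theorem TH_c130 : chunk TH_t TH_R 16383 16319 29155 26000 200 = true := by decide +kernel
theorem TH_c131 : chunk TH_t TH_R 16383 16319 29155 26200 200 = true := by decide +kernel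
theorem TH_c132 : chunk TH_t TH_R 16383 16319 29155 26400 200 = true := by decide +kernel
theorem TH_c133 : chunk TH_t TH_R 16383 16319 29155 26600 200 = true := by decide +kernel
theorem TH_c134 : chunk TH_t TH_R 16383 16319 29155 26800 200 = true := by decide +kernel

end Cfsg.Agent.Lib.Held
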