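import Cfsg.Agent.Lib.Held.TH

set_option autoImplicit false
set_option maxRecDepth 100000

namespace Cfsg.Agent.Lib.Held

open TC

theorem TH_c135 : chunk TH_t TH_R 16383 16319 29155 27000 200 = true := by decide +kernel
theorem TH_c136 : chunk TH_t TH_R 16383 16319 29155 27200 200 = true := by decide +kernel
theorem TH_c137 : chunk TH_t TH_R 16383 16319 29155 27400 200 = true := by decide +kernel
theorem TH_c138 : chunk TH_t TH_R 16383 16319 29155 27600 200 = true := by decide +kernel
theorem TH_c139 : chunk TH_t TH_R 16383 16319 29155 27800 200 = true := by decide +kernel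
theorem TH_c140 : chunk TH_t TH_R 16383 16319 29155 28000 200 = true := by decide +kernel
theorem TH_c141 : chunk TH_t TH_R 16383 16319 29155 28200 200 = true := by decide +kernel
theorem TH_c142 : chunk TH_t TH_R 16383 16319 29155 28400 200 = true := by decide +kernel
theorem TH_c143 : chunk TH_t TH_R 16383 16319 29155 28600 200 = true := by decide +kernel
theorem TH_c144 : chunk TH_t TH_R 16383 16319 29155 28800 200 = true := by decide +kernel
theorem TH_c145 : chunk TH_t TH_R 16383 16319 29155 29000 155 = true := by decide +kernel

end Cfsg.Agent.Lib.Held
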